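import Cfsg.Agent.H19.MWKit4

/-! # MW project: the wreathed subgroup -/

set_option autoImplicit false
set_option maxRecDepth 100000
set_option synthInstance.maxSize 2048
open scoped Pointwise commutatorElement
open Subgroup

namespace Cfsg.Agent.H19.MW
open Cfsg.Agent.H24.MH Cfsg.Agent.H23.D2 Cfsg.Agent.H8
open Cfsg.Agent.H42 (tb cnt cnt_eq_card)

local notation "C[" A "]" => Subgroup.centralizer (SetLike.coe A)
local notation "N[" A "]" => Subgroup.normalizer (SetLike.coe A)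

universe u v
variable {G : Type*} [Group G]

namespace DW
variable [Finite G] {t : G} {J O W : Subgroup G} {θ : ℕ → G} (d : DW t J W θ) (h : Ctx t J O θ)
  (hs : ∀ w ∈ W, w * w = 1)
include d h

theorem t_nC : t ∉ C[W] := fun c => by
  have := card_le_of_le (show W ≤ VV θ from fun w hw => d.fix w hw (mem_C.1 c w hw))
  rw [d.card, h.tm.card_VV] at this
  omega

omit h [Finite G] in
theorem NV {c : G} (hc : c * t = t * c) (h : Ctx t J O θ) [Finite G] (hn : c ∈ N[W]) :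
    c ∈ N[VV θ] := mem_N_of fun v hv => d.fix _ (norm_conj hn (d.le hv)) (by
  have e : t = c * t * c⁻¹ := by rw [hc]; group
  rw [e, comm_conj_iff, h.JC v (h.V_le hv)])

include hs

omit [Finite G] h in
theorem inv_V (tt : t * t = 1) {w : G} (hw : w ∈ W) (e : t * w * (t * w) = 1) : w ∈ VV θ :=
  d.fix w hw (comm_of_invs tt (hs w hw) e).symm

theorem syl_C : IsSylowIn 2 W C[W] := by
  haveI : Fact (Nat.Prime 2) := ⟨Nat.prime_two⟩
  have htC : t ∈ N[C[W]] := mem_N_of fun x hx => C_conj (d.tn h) hx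
  have s : IsSylowIn 2 (W ⊔ zpowers t) (C[W] ⊔ zpowers t) := by
    refine isSylowIn_of_maximal (sup_le_sup_right d.WC _) d.syl.isPGroup fun Q hQ hQH hle => ?_
    by_contra hne
    obtain ⟨y, ⟨hyQ, hyN⟩, hy⟩ := SetLike.exists_of_lt
      (lt_inf_normalizer_of_lt hQ (lt_of_le_of_ne hle fun e => hne e.ge))
    have htQ : t ∈ W ⊔ zpowers t := mem_sup_right (mem_zpowers t)
    have key : ∀ y ∈ Q, y ∈ N[(W ⊔ zpowers t : Subgroup G)] → y ∈ C[W] → y ∈ W ⊔ zpowers t := by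
      intro y hyQ hyN hyC
      obtain ⟨n, hn⟩ := two_of_mem hQ hyQ
      refine d.syl.le_of_le_normalizer' (pgroup_zp hn) (zpowers_le.2 (mem_NN.2
        ⟨centralizer_le d.le hyC, d.inv_V hs h.tt ?_ ?_⟩)) (zpowers_le.2 hyN) (mem_zpowers y)
      · rcases (mem_sup_t h.tt (d.tn h)).1 (norm_conj hyN htQ) with h1 | h1
        · exact absurd (by simpa [mul_assoc] using norm_conj' (C_le_N hyC) h1) d.nm
        · have := norm_conj' (d.tn h) h1
          rwa [mul_assoc t⁻¹, mul_assoc _ t t, h.tt, mul_one] at this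
      · rw [← sg_eq, show y * t * y⁻¹ * (y * t * y⁻¹) = y * (t * t) * y⁻¹ by group, h.tt]; group
    rcases (mem_sup_t h.tt htC).1 (hQH hyQ) with h1 | h1
    · exact hy (key y hyQ hyN h1)
    · exact hy (by
        simpa using mul_mem (key _ (mul_mem hyQ (hle htQ)) (mul_mem hyN (le_normalizer htQ)) h1)
          (inv_mem htQ))
  refine isSylowIn_of_maximal d.WC (pgroup_of_sq hs) fun Q hQ a _ x hx => ?_
  obtain ⟨g, hg, hle⟩ := s.exists_conj_le hQ (a.trans le_sup_left)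
  have hgN : g ∈ N[W] :=
    (sup_le (centralizer_le_normalizer _) (zpowers_le.2 (d.tn h)) : C[W] ⊔ zpowers t ≤ N[W]) hg
  rcases (mem_sup_t h.tt (d.tn h)).1 (hle (conj_mem_conj.2 hx)) with h3 | h3
  · simpa [mul_assoc] using norm_conj' hgN h3
  · exact absurd ((mul_mem_cancel_left (C_conj hgN (a hx))).1 (d.WC h3)) (d.t_nC h)

variable {K : Type*} [Group K] {π : N[W] →* K} {O1 : Subgroup G}
  (hπ : Function.Surjective π) (hk : ∀ x ∈ N[W], ex π x = 1 ↔ x ∈ O1)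
  (hO : ∀ x, x ∈ O1 ↔ x ∈ C[W] ∧ Odd (orderOf x)) (hc : ∀ c ∈ C[W], ∃ w ∈ W, w * c ∈ O1)
include hk hO

omit d h hs [Finite G] in
theorem two_inj {x : G} (hx : x ∈ N[W]) (h2 : ∃ n, x ^ 2 ^ n = 1) (e : ex π x = 1) : x = 1 := by
  obtain ⟨n, h2⟩ := h2
  exact eq_one_of_odd_two ((hO x).1 ((hk x hx).1 e)).2 h2

omit d h [Finite G] in
theorem W_inj {x : G} (hx : x ∈ W) (e : ex π x = 1) : x = 1 :=
  two_inj hk hO (le_normalizer hx) ⟨1, by simpa [pow_two] using hs x hx⟩ e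

omit d h [Finite G] in
theorem comm_W {g w : G} (hg : g ∈ N[W]) (hw : w ∈ W) (e : ex π w * ex π g = ex π g * ex π w) :
    w * g = g * w := by
  have := W_inj hs hk hO (mul_mem (norm_conj hg hw) (inv_mem hw))
    ((ex_div (le_normalizer (norm_conj hg hw)) (le_normalizer hw)).2
      (by rw [ex_conj hg (le_normalizer hw), ← e, mul_inv_cancel_right]))
  rw [mul_inv_eq_one, mul_inv_eq_iff_eq_mul] at this
  exact this.symm

include hπ hc in
theorem loc : Loc (ex π t) (im π J) (im π W) fun n => ex π (θ n) := by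
  have B := h.tm.bV
  have hθ : ∀ n < 128, θ n ∈ N[W] := fun n hn => d.tN (th_T0 θ hn)
  have tN := d.tn h
  have T := tm_ex (π := π) h.tm hθ fun n hn => two_inj hk hO (hθ n hn) ⟨3, h.tm.pow_eight hn⟩
  have eV : VV (fun n => ex π (θ n)) = im π (VV θ) := sp_ex hθ _
  have VN : VV θ ≤ N[W] := d.le.trans le_normalizer
  have nm : ex π t ∉ im π J := fun c => by
    obtain ⟨j, hj, jN, e⟩ := mem_im.1 c
    have a := (hO _).1 ((hk _ (mul_mem tN (inv_mem jN))).1 ((ex_div tN jN).2 e.symm))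
    have b : t * j⁻¹ * (t * j⁻¹) ∈ J := by
      rw [mul_assoc, ← mul_assoc j⁻¹, h.JC _ (inv_mem hj), ← mul_assoc, ← mul_assoc, h.tt, one_mul]
      exact mul_mem (inv_mem hj) (inv_mem hj)
    obtain ⟨m, hm⟩ := a.2
    have : t * j⁻¹ = (t * j⁻¹ * (t * j⁻¹)) ^ (m + 1) := by
      rw [← pow_two, ← pow_mul, show 2 * (m + 1) = orderOf (t * j⁻¹) + 1 by omega, pow_succ,
        pow_orderOf_eq_one, one_mul]
    exact h.tJ ((mul_mem_cancel_right (inv_mem hj)).1 (this ▸ pow_mem b _))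
  refine ⟨T, ⟨by rw [← ex_mul tN tN, h.tt, ex_one], nm, fun c a => ?_, fun g e => ?_⟩,
    fun n hn => ex_mem_im (h.mem n hn) (hθ n hn), ?_, fun g a => ?_, fun A a => ?_,
    fun c a b => ?_, im_normal hπ le_rfl, fun g a => ?_, fun w a => ?_, ?_, eV ▸ im_mono d.le,
    fun c => ?_, fun w a e => ?_, fun w a => ?_, fun v a => ?_⟩
  · obtain ⟨j, hj, jN, rfl⟩ := mem_im.1 a
    rw [← ex_mul jN tN, h.JC j hj, ex_mul tN jN]
  · obtain ⟨g, hg, rfl⟩ := ex_surj hπ g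
    have a : g * t * g⁻¹ * (g * t * g⁻¹) = 1 := by
      rw [show g * t * g⁻¹ * (g * t * g⁻¹) = g * (t * t) * g⁻¹ by group, h.tt]; group
    have gN := mul_mem (mul_mem hg tN) (inv_mem hg)
    have b : t * (g * t * g⁻¹) ∈ O1 := (hk _ (mul_mem tN gN)).1 (by
      rw [ex_mul tN gN, ex_conj hg tN, e, mul_inv_cancel_right, ← ex_mul tN tN, h.tt, ex_one])
    obtain ⟨c, c1, c2⟩ := odd_dih a h.tt ((hO _).1 b).2
    have c3 : c ∈ O1 := zpowers_le.2 b c1
    have cN : c ∈ N[W] := C_le_N ((hO _).1 c3).1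
    have c4 : c * g * t = t * (c * g) := by nth_rw 2 [← c2]; group
    have c5 : ex π (c * g) = ex π g := by rw [ex_mul cN hg, (hk c cN).2 c3, one_mul]
    rw [← c5, ← ex_mul (mul_mem cN hg) tN]
    exact (h.inn' c4 (d.NV c4 h (mul_mem cN hg))).imp (fun x => ex_mem_im x (mul_mem cN hg))
      fun x => ex_mem_im x (mul_mem (mul_mem cN hg) tN)
  · have e1 : im π J = im π (J ⊓ N[W]) := le_antisymm (fun y hy => by
      obtain ⟨j, hj, jN, rfl⟩ := mem_im.1 hy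
      exact ex_mem_im ⟨hj, jN⟩ jN) (im_mono inf_le_left)
    rw [e1, T0, sp_ex hθ]
    exact sylow_im (h.syl.mono (le_inf h.T0_le d.tN) inf_le_left) inf_le_right
  · obtain ⟨j, hj, jN, rfl⟩ := mem_im.1 a
    obtain ⟨A, a1, a2⟩ := h.act j hj (d.NV (h.JC j hj) h jN)
    exact ⟨A, a1, act_ex (fun v hv => hθ v (by omega)) jN a2⟩
  · obtain ⟨g, g1, g2, g3⟩ := d.real A a
    exact ⟨_, ex_mem_im g1 g2, act_ex (fun v hv => hθ v (by omega)) g2 g3⟩
  · obtain ⟨j, hj, jN, rfl⟩ := mem_im.1 a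
    have jC : j ∈ C[VV θ] := mem_C.2 fun v hv => comm_W hs hk hO jN (d.le hv)
      (mem_C.1 b _ (eV ▸ ex_mem_im hv (VN hv)))
    obtain ⟨v, hv, e⟩ := h.cen j hj jC
    have m := B.mem v hv
    have := (hk _ (mul_mem (VN m) jN)).2 ((hO _).2 ⟨d.cw h (h.le e) (mul_mem (VN m) jN)
      (mul_mem (d.W_CV (d.le m)) jC), odd_of_mem h.odd e⟩)
    rw [ex_mul (VN m) jN] at this
    rw [eq_inv_of_mul_eq_one_right this]
    exact inv_mem (T.bV.mem v hv)
  · obtain ⟨g, hg, rfl⟩ := ex_surj hπ g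
    obtain ⟨w, hw, e⟩ := hc g (mem_C.2 fun w hw => comm_W hs hk hO hg hw
      (mem_C.1 a _ (ex_mem_im hw (le_normalizer hw))))
    have := (hk _ (mul_mem (le_normalizer hw) hg)).2 e
    rw [ex_mul (le_normalizer hw) hg] at this
    rw [eq_inv_of_mul_eq_one_right this]
    exact inv_mem (ex_mem_im hw (le_normalizer hw))
  · obtain ⟨w, hw, wN, rfl⟩ := mem_im.1 a
    rw [← ex_mul wN wN, hs w hw, ex_one]
  · rw [card_im le_normalizer fun a ha => W_inj hs hk hO ha, d.card]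
  · obtain ⟨w, hw, wN, e⟩ := mem_im.1 c
    exact d.t_nC h ((mul_mem_cancel_right (inv_mem (d.WC hw))).1
      ((hO _).1 ((hk _ (mul_mem tN (inv_mem wN))).1 ((ex_div tN wN).2 e.symm))).1)
  · obtain ⟨w, hw, wN, rfl⟩ := mem_im.1 a
    rw [eV]
    exact ex_mem_im (d.fix w hw (comm_W hs hk hO tN hw e)) wN
  · obtain ⟨w, hw, wN, rfl⟩ := mem_im.1 a
    obtain ⟨v, hv, e⟩ := d.br w hw
    exact ⟨_, eV ▸ ex_mem_im hv (VN hv), by rw [← ex_conj wN tN, e, ex_mul tN (VN hv)]⟩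
  · rw [eV] at a
    obtain ⟨v, hv, vN, rfl⟩ := mem_im.1 a
    obtain ⟨w, hw, e⟩ := d.onto v hv
    exact ⟨_, ex_mem_im hw (le_normalizer hw), by
      rw [← ex_conj (le_normalizer hw) tN, e, ex_mul tN vN]⟩

end DW

theorem wr (hS : SplitStmt.{u}) (hT : TrbStmt.{u}) (hX : XbStmt.{u}) (hP : ProdStmt.{u})
    (hF : FullStmt.{u}) : WrStmt.{u} := by
  intro G _ _ t J O W F θ h d hs ⟨k, kN, ek⟩ nF TF
  haveI : Fact (Nat.Prime 2) := ⟨Nat.prime_two⟩
  obtain ⟨O1, o1, hO, hc⟩ := exists_odd_part (d.syl_C h hs) le_rfl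
  have NO : N[W] ≤ N[O1] := fun g hg => mem_N_of fun x hx => (hO _).2
    ⟨C_conj hg ((hO x).1 hx).1, by
      have := ((hO x).1 hx).2
      rwa [← (MulAut.conj g).orderOf_eq x] at this⟩
  haveI : (O1.subgroupOf N[W]).Normal := ⟨fun n hn g =>
    mem_subgroupOf.2 (norm_conj (NO g.2) (mem_subgroupOf.1 hn))⟩
  obtain ⟨π, hπ, hk⟩ : ∃ π : N[W] →* N[W] ⧸ O1.subgroupOf N[W], Function.Surjective π ∧
      ∀ x ∈ N[W], ex π x = 1 ↔ x ∈ O1 :=
    ⟨QuotientGroup.mk' _, QuotientGroup.mk'_surjective _, fun x hx => by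
      rw [ex_eq hx, QuotientGroup.mk'_apply, QuotientGroup.eq_one_iff, mem_subgroupOf]⟩
  have L := d.loc h hs hπ hk hO hc
  have hθ : ∀ n < 128, θ n ∈ N[W] := fun n hn => d.tN (th_T0 θ hn)
  have tN := d.tn h
  have cj1 : IsConj (ex π t) (ex π t * ex π (θ 16)) := isConj_iff.2 ⟨ex π k, by
    rw [← ex_conj kN tN, ek, ex_mul tN (hθ 16 (by norm_num))]⟩
  obtain ⟨s, sw⟩ := hS _ _ _ _ _ L
  obtain ⟨x, x1, x2, x3⟩ := hT _ _ _ _ _ L cj1
  obtain ⟨y, y1, y2⟩ := hX _ _ _ _ _ _ L sw cj1 x x1 x2 x3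
  obtain ⟨Y, ζ, pr⟩ := hP _ _ _ _ _ _ L sw y y1 y2
  have full := hF _ _ _ _ _ _ _ L pr
  have tt := L.spl.sq
  have tp : TP ζ (cj (ex π t) ζ) := ⟨pr.tm, pr.tm.cj _,
    fun n a m b => pr.comm _ (pr.mem n a) _ (pr.mem m b), fun n a m b e => by
      have := pr.disj _ (pr.mem m b) (show cj (ex π t) ζ m ∈ Y from e ▸ pr.mem n a)
      rw [cj, this] at e
      exact (pr.tm.eq_one a).1 (by simpa using e)⟩
  clear x1 x2 x3 y1 y2 sw cj1
  -- the Sylow subgroup `R`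
  have P2 : IsPGroup 2 (SS (ex π t) ζ ⊔ zpowers (ex π t) : Subgroup _) := by
    rw [sup_comm]
    exact (pgroup_zp (n := 1) (by simpa [pow_two] using tt)).to_sup_of_normal_right' tp.isPGroup
      (zpowers_le.2 (t_NS tt))
  have mS : ∀ n < 128, ζ n ∈ SS (ex π t) ζ ⊔ zpowers (ex π t) := fun n hn =>
    mem_sup_left (mem_sup_left (th_T0 ζ hn))
  have mT : ∀ n < 128, ex π (θ n) ∈ SS (ex π t) ζ ⊔ zpowers (ex π t) := fun n hn =>
    pr.diag n hn ▸ mul_mem (mS n hn) (mem_sup_left (mem_sup_right (th_T0 _ hn)))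
  have mW : im π W ≤ SS (ex π t) ζ ⊔ zpowers (ex π t) :=
    pr.eqW ▸ (sup_le_sup (VV_le_T0 _) (VV_le_T0 _)).trans le_sup_left
  have mt : ex π t ∈ SS (ex π t) ζ ⊔ zpowers (ex π t) := mem_sup_right (mem_zpowers _)
  generalize SS (ex π t) ζ ⊔ zpowers (ex π t) = P at P2 mS mT mW mt
  obtain ⟨R, sR, hle⟩ := exists_isSylowIn_ge (H := pre π P)
    ((pgroup_zp (x := t) (n := 1) (by simpa [pow_two] using h.tt)).to_sup_of_normal_right'
      h.tm.isPGroup (zpowers_le.2 (C_le_N (mem_C.2 fun x hx => h.JC x (h.T0_le hx)))))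
    (sup_le (zpowers_le.2 (mem_pre.2 ⟨tN, mt⟩)) (sp_le fun n hn _ => mem_pre.2 ⟨hθ n hn, mT n hn⟩))
  have RN : R ≤ N[W] := sR.le.trans pre_le
  have tR : t ∈ R := hle (mem_sup_left (mem_zpowers t))
  have θR : ∀ n < 128, θ n ∈ R := fun n hn => hle (mem_sup_right (th_T0 θ hn))
  have WR : W ≤ R := sR.le_of_le_normalizer (pgroup_of_sq hs)
    (fun w hw => mem_pre.2 ⟨le_normalizer hw, mW (ex_mem_im hw (le_normalizer hw))⟩) RN
  have inj : ∀ a ∈ R, ∀ b ∈ R, ex π a = ex π b → a = b := fun a ha b hb e =>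
    mul_inv_eq_one.1 (DW.two_inj hk hO (RN (mul_mem ha (inv_mem hb)))
      (two_of_mem sR.isPGroup (mul_mem ha (inv_mem hb))) ((ex_div (RN ha) (RN hb)).2 e))
  have YF : Y ≤ im π F := pr.ncl _ (im_normal hπ le_normalizer_of_normal)
    (by rw [T0, sp_ex hθ]; exact im_mono TF)
  have ex1 : ∀ n < 128, ∃ r, (r ∈ R ∧ r ∈ F) ∧ ex π r = ζ n := fun n hn => by
    obtain ⟨f, f1, f2, e⟩ := mem_im.1 (YF (pr.mem n hn))
    obtain ⟨r, r1, r2⟩ := onto_two (π := π) (sR.inf_of_le_normalizer (N := F)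
      le_normalizer_of_normal) (inf_le_left.trans pre_le)
      (P2.to_le ((im_mono inf_le_left).trans im_pre_le)) (d := f)
      ⟨mem_pre.2 ⟨f2, e ▸ mS n hn⟩, f1⟩
    exact ⟨r, r1, r2.trans e⟩
  choose! η e1 e2 using ex1
  have ηR : ∀ n < 128, η n ∈ R := fun n hn => (e1 n hn).1
  have cR : ∀ n < 128, cj t η n ∈ R := fun n hn => mul_mem (mul_mem tR (ηR n hn)) (inv_mem tR)
  have e3 : ∀ n < 128, ex π (cj t η n) = cj (ex π t) ζ n := fun n hn => by
    rw [cj, ex_conj tN (RN (ηR n hn)), e2 n hn, cj]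
  have T : TM η := ⟨fun n a m b => inj _ (mul_mem (ηR n a) (ηR m b)) _ (ηR _ (tm_lt n a m b)) (by
      rw [ex_mul (RN (ηR n a)) (RN (ηR m b)), e2 n a, e2 m b, e2 _ (tm_lt n a m b),
        pr.tm.mul n a m b]),
    fun n a m b e => pr.tm.inj n a m b (by rw [← e2 n a, e, e2 m b])⟩
  have TP' : TP η (cj t η) := ⟨T, T.cj t, fun n a m b =>
      inj _ (mul_mem (ηR n a) (cR m b)) _ (mul_mem (cR m b) (ηR n a)) (by
        rw [ex_mul (RN (ηR n a)) (RN (cR m b)), ex_mul (RN (cR m b)) (RN (ηR n a)), e2 n a, e3 m b,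
          tp.comm n a m b]),
    fun n a m b e => tp.disj n a m b (by rw [← e2 n a, e, e3 m b])⟩
  have inW : ∀ r ∈ R, ex π r ∈ im π W → r ∈ W := fun r a b => by
    obtain ⟨w, hw, -, e⟩ := mem_im.1 b
    exact inj _ (WR hw) _ a e ▸ hw
  have vW : ∀ v < 16, η v ∈ W := fun v hv => inW _ (ηR v (by omega)) (by
    rw [e2 v (by omega), pr.eqW]; exact mem_sup_left (pr.tm.bV.mem v hv))
  have eW : VV η ⊔ VV (cj t η) = W := eq_of_le_of_card_ge (sup_le
    (fun x hx => by obtain ⟨v, hv, rfl⟩ := T.mem_VV.1 hx; exact vW v hv)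
    (fun x hx => by obtain ⟨v, hv, rfl⟩ := (T.cj t).mem_VV.1 hx; exact norm_conj tN (vW v hv)))
    (by rw [d.card]; exact (TP'.card_W false false).ge)
  have lift : ∀ g ∈ N[W], ∀ A, Act ζ (ex π g) A → Act η g A := fun g hg A a =>
    ⟨a.1, fun v hv => inj _ (WR (norm_conj hg (vW v hv))) _ (WR (vW _ (mm_vec_lt _ hv))) (by
      have := mm_vec_lt A hv
      rw [ex_conj hg (le_normalizer (vW v hv)), e2 v (by omega), a.2 v hv, e2 _ (by omega)])⟩
  have S2R : T0 (cj t η) ≤ R := sp_le fun n hn _ => cR n hn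
  have S2F : T0 (cj t η) ≤ F := sp_le fun n hn _ => nF.conj_mem _ (e1 n hn).2 t
  have liftY : ∀ y ∈ Y, ∃ g ∈ F ⊓ C[T0 (cj t η)], g ∈ N[W] ∧ ex π g = y := fun y hy => by
    obtain ⟨f, f1, f2, rfl⟩ := mem_im.1 (YF hy)
    have key : ∀ x ∈ T0 (cj t η), ex π (f * x * f⁻¹) = ex π x := fun x hx => by
      obtain ⟨n, hn, rfl⟩ := (T.cj t).mem_T0.1 hx
      rw [ex_conj f2 (RN (cR n hn)), e3 n hn, cj, pr.comm _ hy _ (pr.mem n hn),
        mul_inv_cancel_right]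
    obtain ⟨o, ho, e⟩ := adjust_odd (V := T0 (cj t η)) (O := O1 ⊓ F) (T.cj t).isPGroup
      (o1.of_dvd_nat (card_dvd_of_le inf_le_left))
      (fun x hx => mem_N_of fun z hz => ⟨norm_conj (NO (RN (S2R hx))) hz.1, nF.conj_mem _ hz.2 _⟩)
      (g := f) fun x hx => by
        have a := mul_mem (mul_mem f2 (RN (S2R hx))) (inv_mem f2)
        have := mul_mem (mem_sup_right (S := T0 (cj t η)) (T := O1 ⊓ F)
          ⟨(hk _ (mul_mem a (inv_mem (RN (S2R hx))))).1 ((ex_div a (RN (S2R hx))).2 (key x hx)),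
            F.mul_mem (nF.conj_mem _ (S2F hx) f) (inv_mem (S2F hx))⟩) (mem_sup_left hx)
        simpa using this
    have oN : o ∈ N[W] := C_le_N ((hO o).1 ho.1).1
    have e4 : ex π (o * f) = ex π f := by rw [ex_mul oN f2, (hk o oN).2 ho.1, one_mul]
    refine ⟨o * f, ⟨mul_mem ho.2 f1, mem_C.2 fun x hx => ?_⟩, mul_mem oN f2, e4⟩
    have := inj _ (S2R (norm_conj e hx)) _ (S2R hx) (by
      rw [ex_conj (mul_mem oN f2) (RN (S2R hx)), e4, ← ex_conj f2 (RN (S2R hx)), key x hx])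
    exact (mul_inv_eq_iff_eq_mul.1 this).symm
  refine ⟨η, T, TP'.comm, TP'.disj, fun n hn => inj _ (mul_mem (ηR n hn) (cR n hn)) _ (θR n hn) (by
      rw [ex_mul (RN (ηR n hn)) (RN (cR n hn)), e2 n hn, e3 n hn, pr.diag n hn]),
    fun n hn => (e1 n hn).2, fun A a => ?_, sp_le fun n hn _ => ?_, fun g hg => ?_,
    ⟨O1, o1, eW ▸ fun x hx => ((hO x).1 hx).1, eW ▸ NO, eW ▸ hc⟩, eW ▸ d.syl⟩
  · obtain ⟨y, y1, y2⟩ := pr.real A a
    obtain ⟨g, g1, g2, rfl⟩ := liftY y y1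
    exact ⟨g, g1.2, lift g g2 A y2⟩
  · have k1 : Y ≤ im π (F ⊓ C[T0 (cj t η)]) := fun y hy => by
      obtain ⟨g, g1, g2, rfl⟩ := liftY y hy
      exact ex_mem_im g1 g2
    have k2 : η n ∈ F ⊓ C[T0 (cj t η)] := ⟨(e1 n hn).2, TP'.le_C (th_T0 η hn)⟩
    obtain ⟨c, c1, c2, e⟩ := mem_im.1 (im_comm (commutator_mono k1 k1 (pr.perf.ge (pr.mem n hn))))
    have c3 : c ∈ F ⊓ C[T0 (cj t η)] := commutator_le.2 (fun a ha b hb =>
      mul_mem (mul_mem (mul_mem ha hb) (inv_mem ha)) (inv_mem hb)) c1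
    have c4 : c⁻¹ * η n ∈ O1 := (hk _ (mul_mem (inv_mem c2) (RN (ηR n hn)))).1 (by
      rw [ex_mul (inv_mem c2) (RN (ηR n hn)), ex_inv c2, e, e2 n hn, inv_mul_cancel])
    refine two_mem_of_odd ⟨3, T.pow_eight hn⟩ ((hO _).1 c4).2 ?_ (by simpa using c1)
    rw [mem_N_iff, commutator_conj_smul, mem_N_iff.1 (le_normalizer (mul_mem (inv_mem c3) k2))]
  · rw [eW] at hg
    exact (full (ex π g)).imp (fun ⟨A, a, b⟩ => ⟨A, a, lift g hg A b⟩) fun ⟨A, a, b⟩ =>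
      ⟨A, a, lift _ (mul_mem tN hg) A (by rwa [ex_mul tN hg])⟩

end Cfsg.Agent.H19.MW
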