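import Mathlib
import Cfsg.Agent.H19.OddIndex
import Cfsg.Agent.H20.Count
import Cfsg.Agent.H16.BrauerBlock
import Cfsg.Agent.H21.TildeInt

/-!
Counting the characters of a block fixed by a Galois automorphism `g ↦ g ^ k` that fixes the
`p'`-roots of unity, section by section (Brauer's permutation lemma for the generalized
decomposition matrix).
-/

set_option autoImplicit false
set_option linter.unusedSectionVars false

namespace Cfsg.Agent.H19

open Cfsg Cfsg.Agent.H17 Cfsg.Agent.H16 Cfsg.Agent.H20 MonoidAlgebra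
open scoped ComplexConjugate

universe u

variable {G : Type u} [Group G] [Finite G] {M : Ideal AlgInt} {p : ℕ}

/-- The multiplicity of `Φ_i` in `Φ_i ∘ α`. -/
noncomputable def twistRk (α : G ≃* G) (i : IBr M G) : ℕ :=
  rk (srep i (piG M G (mapDomainAlgHom (Vr M) (Vr M) (α.symm : G →* G) (pidem i))))

theorem classInner_pim_comp [Fintype G] (hM : IsPModular p M) (α : G ≃* G) (i : IBr M G) :
    classInner (fun g => pim i (α g)) (ibr p i) = twistRk α i := by
  have h1 : classInner (fun g => pim i (α g)) (ibr p i) =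
      classInner (pim i) (fun g => ibr p i (α.symm g)) := by
    rw [← H11.classInner_comp_mulEquiv α (pim i) (fun g => ibr p i (α.symm g))]
    simp
  have h2 : IsClassFunction G (fun g => ibr p i (α.symm g)) := fun a b => by
    simpa using isClassFunction_ibr i (α.symm a) (α.symm b)
  rw [h1, ← H11.conj_classInner, classInner_classFun_pim i h2]
  have h3 := charLift_mapDomain (α.symm : G →* G) (ibr p i) (iotaG M G (pidem i))
  rw [← iotaG_mapDomain, charLift_ibr_idem hM i ((pidem_idem i).map _)] at h3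
  have h4 : (fun h => ibr p i ((α.symm : G →* G) h)) = fun g => ibr p i (α.symm g) := rfl
  rw [← h4, ← h3, map_natCast, twistRk]

open scoped Classical in
theorem finsum_mul_reg_eq (hM : IsPModular p M) {A : Set (IrrCharacter G)} (hA : LamClosed M A)
    (w : G) {y : G} (hy : ¬ p ∣ orderOf y) :
    ∑ᶠ ξ ∈ A, ξ.1 w * ξ.1 y⁻¹ =
      ∑ i ∈ Finset.univ.filter (· ∈ ibrOf M A), pim i w * ibr p i y⁻¹ := by
  let _ := Fintype.ofFinite (IrrCharacter G)
  have hy' : ¬ p ∣ orderOf y⁻¹ := by rwa [orderOf_inv]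
  rw [H21.finsum_mem_eq_sum_filter', Finset.sum_congr rfl (g := fun ξ =>
    ∑ i ∈ Finset.univ.filter (· ∈ ibrOf M A), (dnum ξ.1 i : ℂ) * ξ.1 w * ibr p i y⁻¹)
    (fun ξ hξ => by
      have := congrFun (pRegularPart_eq_sum_ibrOf hM (Finset.mem_filter.1 hξ).2) y⁻¹
      rw [pRegularPart_of_not_dvd _ hy', Finset.sum_apply] at this
      rw [this, Finset.mul_sum]
      exact Finset.sum_congr rfl fun i _ => by rw [Pi.smul_apply, smul_eq_mul]; ring),
    Finset.sum_comm]
  refine Finset.sum_congr rfl fun i hi => ?_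
  rw [← Finset.sum_mul, pim_eq_sum, Finset.sum_apply, Finset.sum_filter]
  congr 1
  refine Finset.sum_congr rfl fun ξ _ => ?_
  split_ifs with h
  · rfl
  · rw [dnum_eq_zero_of_notMem hA (Finset.mem_filter.1 hi).2 h]; simp

open scoped Classical in
theorem sum_reg_twist [Fintype G] (hM : IsPModular p M) {A : Set (IrrCharacter G)}
    (hA : LamClosed M A) (α : G ≃* G) :
    ∑ y : G with ¬ p ∣ orderOf y, ∑ᶠ ξ ∈ A, ξ.1 (α y) * ξ.1 y⁻¹ =
      Nat.card G * ∑ i ∈ Finset.univ.filter (· ∈ ibrOf M A), (twistRk α i : ℂ) := by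
  rw [Finset.sum_congr rfl (fun y hy => finsum_mul_reg_eq hM hA (α y) (Finset.mem_filter.1 hy).2),
    Finset.sum_comm, Finset.mul_sum]
  refine Finset.sum_congr rfl fun i _ => ?_
  have hc : (Nat.card G : ℂ) ≠ 0 := by exact_mod_cast Nat.card_pos.ne'
  rw [← classInner_pim_comp hM, H11.classInner_def, mul_inv_cancel_left₀ hc, Finset.sum_filter]
  refine Finset.sum_congr rfl fun y _ => ?_
  rw [conj_ibr hM]
  split_ifs with h
  · rw [ibr_of_dvd i (by rwa [orderOf_inv]), mul_zero]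
  · rfl

theorem pow_eq_self_of_reg (hp : p.Prime) {k : ℕ}
    (hk1 : k ≡ 1 [MOD Nat.card G / p ^ (Nat.card G).factorization p]) {g : G}
    (hg : ¬ p ∣ orderOf g) : g ^ k = g := by
  have h7 : orderOf g ∣ Nat.card G / p ^ (Nat.card G).factorization p := by
    refine Nat.Coprime.dvd_of_dvd_mul_left (k := orderOf g)
      (m := p ^ (Nat.card G).factorization p)
      (Nat.Coprime.pow_right _ ((Nat.Prime.coprime_iff_not_dvd hp).2 hg).symm) ?_
    rw [Nat.ordProj_mul_ordCompl_eq_self]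
    exact orderOf_dvd_natCard g
  rw [pow_eq_pow_iff_modEq.2 (hk1.of_dvd h7), pow_one]

/-- Conjugation by an element `a` with `a x a⁻¹ = x ^ k` on the centralizer of `x`. -/
def cgAut {x a : G} {k : ℕ} (hk : k.Coprime (Nat.card G)) (ha : a * x * a⁻¹ = x ^ k) :
    Cg x ≃* Cg x :=
  have h : ∀ y, y ∈ Cg x ↔ a⁻¹ * y * a ∈ Cg x := fun y => by
    have e : y ∈ Cg x ↔ y ∈ Cg (a * x * a⁻¹) := by
      rw [ha, show Cg (x ^ k) = Cg x from centralizer_pow_eq hk x]
    rw [e, Subgroup.mem_centralizer_singleton_iff, Subgroup.mem_centralizer_singleton_iff]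
    constructor
    · intro h
      calc a⁻¹ * y * a * x = a⁻¹ * (y * (a * x * a⁻¹)) * a := by group
        _ = _ := by rw [h]; group
    · intro h
      calc y * (a * x * a⁻¹) = a * (a⁻¹ * y * a * x) * a⁻¹ := by group
        _ = _ := by rw [h]; group
  { toFun := fun y => ⟨a⁻¹ * y * a, (h y).1 y.2⟩
    invFun := fun y => ⟨a * y * a⁻¹, (h _).2 (by simpa [mul_assoc] using y.2)⟩
    left_inv := fun y => Subtype.ext (by simp [mul_assoc])
    right_inv := fun y => Subtype.ext (by simp [mul_assoc])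
    map_mul' := fun y z => Subtype.ext (by simp [mul_assoc]) }

theorem coe_cgAut {x a : G} {k : ℕ} (hk : k.Coprime (Nat.card G)) (ha : a * x * a⁻¹ = x ^ k)
    (y : Cg x) : (cgAut hk ha y : G) = a⁻¹ * y * a := rfl

theorem isClassFunction_finsum_pow (B : Set (IrrCharacter G)) (k : ℕ) :
    IsClassFunction G fun g => ∑ᶠ χ ∈ B, χ.1 (g ^ k) * χ.1 g⁻¹ := fun g h => by
  refine finsum_mem_congr rfl fun χ _ => ?_
  have hχ := H11.isClassFunction_of_irr χ.2
  rw [conj_pow, hχ, show (h * g * h⁻¹)⁻¹ = h * g⁻¹ * h⁻¹ by group, hχ]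

open scoped Classical in
theorem sum_section_pow_of_conj [Fintype G] (hM : IsPModular p M) {B : Set (IrrCharacter G)}
    (hB : LamClosed M B) {k : ℕ} (hk : k.Coprime (Nat.card G))
    (hk1 : k ≡ 1 [MOD Nat.card G / p ^ (Nat.card G).factorization p]) {x a : G}
    (hx : ∃ k : ℕ, orderOf x = p ^ k) (ha : a * x * a⁻¹ = x ^ k) :
    ∑ g : G with InSec p x g, ∑ᶠ χ ∈ B, χ.1 (g ^ k) * χ.1 g⁻¹ = Nat.card G *
      ∑ i ∈ Finset.univ.filter (· ∈ ibrOf M (locSet M (Cg x) B)),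
        (twistRk (cgAut hk ha) i : ℂ) := by
  let _ := Fintype.ofFinite (Cg x)
  have hc : (Nat.card (Cg x) : ℂ) ≠ 0 := by exact_mod_cast Nat.card_pos.ne'
  refine mul_left_cancel₀ hc ?_
  rw [sum_section hM.1 hx (isClassFunction_finsum_pow B k), mul_left_comm,
    ← sum_reg_twist hM (lamClosed_locSet _ B)]
  congr 1
  refine Finset.sum_congr rfl fun y hy => ?_
  have hy' := (Finset.mem_filter.1 hy).2
  rw [← finsum_subsection_eq hM hB hx (by rwa [MulEquiv.orderOf_eq]) hy']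
  refine finsum_mem_congr rfl fun χ _ => ?_
  have hc : Commute x y := (Subgroup.mem_centralizer_singleton_iff.1 y.2).symm
  rw [hc.mul_pow, pow_eq_self_of_reg hM.1 hk1 (g := (y : G)) (by rwa [Subgroup.orderOf_coe]), ← ha,
    coe_cgAut, ← H11.isClassFunction_of_irr χ.2 (x * (a⁻¹ * y * a)) a]
  congr 2; group

open scoped Classical in
theorem sum_section_pow_of_not_conj [Fintype G] (hM : IsPModular p M) {B : Set (IrrCharacter G)}
    (hB : LamClosed M B) {k : ℕ} (hk : k.Coprime (Nat.card G))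
    (hk1 : k ≡ 1 [MOD Nat.card G / p ^ (Nat.card G).factorization p]) {x : G}
    (hx : ∃ k : ℕ, orderOf x = p ^ k) (ha : ¬ IsConj x (x ^ k)) :
    ∑ g : G with InSec p x g, ∑ᶠ χ ∈ B, χ.1 (g ^ k) * χ.1 g⁻¹ = 0 := by
  let _ := Fintype.ofFinite (Cg x)
  have hc : (Nat.card (Cg x) : ℂ) ≠ 0 := by exact_mod_cast Nat.card_pos.ne'
  refine mul_left_cancel₀ hc ?_
  rw [sum_section hM.1 hx (isClassFunction_finsum_pow B k), mul_zero, Finset.sum_eq_zero, mul_zero]
  intro y hy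
  have hy' : ¬ p ∣ orderOf (y : G) := by
    rw [Subgroup.orderOf_coe]; exact (Finset.mem_filter.1 hy).2
  have hc : Commute x y := (Subgroup.mem_centralizer_singleton_iff.1 y.2).symm
  rw [hc.mul_pow, pow_eq_self_of_reg hM.1 hk1 hy']
  exact block_orth hM hB (pPart_mul (hc.pow_left k) (by rwa [orderOf_pow_eq hk]) hy')
    (pPart_mul hc hx hy') fun h => ha h.symm

open scoped Classical in
theorem card_mul_card_fixed [Fintype G] {k : ℕ} (hk : k.Coprime (Nat.card G))
    (A : Set (IrrCharacter G)) :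
    (Nat.card G : ℂ) * Nat.card {χ : IrrCharacter G // χ ∈ A ∧ ∀ g, χ.1 (g ^ k) = χ.1 g} =
      ∑ g : G, ∑ᶠ χ ∈ A, χ.1 (g ^ k) * χ.1 g⁻¹ := by
  let _ := Fintype.ofFinite (IrrCharacter G)
  have hc : (Nat.card G : ℂ) ≠ 0 := by exact_mod_cast Nat.card_pos.ne'
  have h1 := card_fixed_eq hk A
  simp only [powIrr_eq_iff] at h1
  rw [Nat.card_eq_fintype_card (α := {χ : IrrCharacter G // _}), Fintype.card_subtype, h1,
    mul_inv_cancel_left₀ hc]
  refine Finset.sum_congr rfl fun g _ => ?_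
  rw [H21.finsum_mem_eq_sum_filter']
  exact Finset.sum_congr rfl fun χ _ => by rw [H11.conj_apply (H11.irr_isCharacter χ)]

open scoped Classical in
theorem exists_pElt_reps (p : ℕ) (G : Type u) [Group G] [Finite G] :
    ∃ X : Finset G, (∀ x ∈ X, ∃ k : ℕ, orderOf x = p ^ k) ∧
      ∀ g : G, (∃ k : ℕ, orderOf g = p ^ k) → ∃! x, x ∈ X ∧ IsConj g x := by
  let _ := Fintype.ofFinite G
  refine ⟨Finset.univ.filter fun x => (∃ k : ℕ, orderOf x = p ^ k) ∧ rep (ConjClasses.mk x) = x,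
    fun x hx => (Finset.mem_filter.1 hx).2.1, fun g hg => ⟨rep (ConjClasses.mk g), ⟨?_, ?_⟩, ?_⟩⟩
  · refine Finset.mem_filter.2 ⟨Finset.mem_univ _, ?_, by rw [mk_rep]⟩
    obtain ⟨a, ha⟩ := isConj_iff.1 (isConj_rep_mk g).symm
    rwa [← ha, H21.orderOf_conj]
  · exact (isConj_rep_mk g).symm
  · rintro y ⟨h1, h2⟩
    rw [ConjClasses.mk_eq_mk_iff_isConj.2 h2, (Finset.mem_filter.1 h1).2.2]

theorem blockRank_le_card_fixed (hM : IsPModular p M) {B : Set (IrrCharacter G)}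
    (hB : LamClosed M B) {k : ℕ} (hk : k.Coprime (Nat.card G))
    (hk1 : k ≡ 1 [MOD Nat.card G / p ^ (Nat.card G).factorization p]) :
    blockRank p B ≤ Nat.card {χ : IrrCharacter G // χ ∈ B ∧ ∀ g, χ.1 (g ^ k) = χ.1 g} := by
  classical
  let _ := Fintype.ofFinite G
  obtain ⟨X, hX, hrep⟩ := exists_pElt_reps p G
  have h1 : (1 : G) ∈ X := by
    obtain ⟨x, ⟨h1, h2⟩, -⟩ := hrep 1 ⟨0, by simp⟩
    rwa [isConj_one_right.1 h2] at h1
  have h2 : ∀ x ∈ X, ∃ m : ℕ,
      ∑ g : G with InSec p x g, ∑ᶠ χ ∈ B, χ.1 (g ^ k) * χ.1 g⁻¹ = Nat.card G * m := by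
    intro x hx
    by_cases h : IsConj x (x ^ k)
    · obtain ⟨a, ha⟩ := isConj_iff.1 h
      exact ⟨_, by rw [sum_section_pow_of_conj hM hB hk hk1 (hX x hx) ha, Nat.cast_sum]⟩
    · exact ⟨0, by rw [sum_section_pow_of_not_conj hM hB hk hk1 (hX x hx) h]; simp⟩
  choose! m hm using h2
  have h3 := card_mul_card_fixed hk B
  rw [sum_eq_sum_sections hM.1 X hrep, Finset.sum_congr rfl hm, ← Finset.mul_sum] at h3
  have hc : (Nat.card G : ℂ) ≠ 0 := by exact_mod_cast Nat.card_pos.ne'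
  have h4 := mul_left_cancel₀ hc h3
  have h5 : (Nat.card G : ℂ) * blockRank p B = Nat.card G * m 1 := by
    rw [← hm 1 h1, card_mul_blockRank' hM hB]
    refine Finset.sum_congr (Finset.filter_congr fun g _ => ⟨fun h => ⟨1, pPart_one_iff.2 h,
      IsConj.refl _⟩, fun ⟨z, h, h'⟩ => pPart_one_iff.1 (isConj_one_right.1 h' ▸ h)⟩)
      fun g hg => ?_
    obtain ⟨z, h, h'⟩ := (Finset.mem_filter.1 hg).2
    rw [pow_eq_self_of_reg hM.1 hk1 (pPart_one_iff.1 (isConj_one_right.1 h' ▸ h))]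
  have h6 : blockRank p B = m 1 := by exact_mod_cast mul_left_cancel₀ hc h5
  have h7 : Nat.card {χ : IrrCharacter G // χ ∈ B ∧ ∀ g, χ.1 (g ^ k) = χ.1 g} = ∑ x ∈ X, m x := by
    exact_mod_cast h4
  rw [h6, h7]
  exact Finset.single_le_sum (fun _ _ => Nat.zero_le _) h1

/-- For odd `p` the group of residues `k ≡ 1` modulo the `p'`-part of `n` is cyclic. -/
theorem exists_generator_modEq (hp : p.Prime) (hodd : p ≠ 2) {n : ℕ} (hn : n ≠ 0) :
    ∃ k₀ : ℕ, k₀.Coprime n ∧ k₀ ≡ 1 [MOD n / p ^ n.factorization p] ∧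
      ∀ k : ℕ, k.Coprime n → k ≡ 1 [MOD n / p ^ n.factorization p] → ∃ j, k₀ ^ j ≡ k [MOD n] := by
  set a := n.factorization p
  set m := n / p ^ a
  have hc : (p ^ a).Coprime m := (Nat.coprime_ordCompl hp hn).pow_left _
  have hnm : p ^ a * m = n := Nat.ordProj_mul_ordCompl_eq_self n p
  haveI : NeZero (p ^ a) := ⟨pow_ne_zero _ hp.ne_zero⟩
  obtain ⟨u, hu⟩ := (ZMod.isCyclic_units_of_prime_pow p hp hodd a).exists_monoid_generator
  obtain ⟨k₀, h1, h2⟩ := Nat.chineseRemainder hc (u : ZMod (p ^ a)).val 1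
  have h3 : (k₀ : ZMod (p ^ a)) = u := by
    rw [(ZMod.natCast_eq_natCast_iff _ _ _).2 h1, ZMod.natCast_zmod_val]
  refine ⟨k₀, ?_, h2, fun k hk hk1 => ?_⟩
  · rw [← hnm]
    refine Nat.Coprime.mul_right ?_ (Nat.coprime_of_mul_modEq_one 1 (by simpa using h2))
    rw [← ZMod.isUnit_iff_coprime, h3]
    exact u.isUnit
  · have h4 : k.Coprime (p ^ a) := hk.coprime_dvd_right ⟨m, hnm.symm⟩
    obtain ⟨j, hj⟩ := hu (ZMod.unitOfCoprime k h4)
    refine ⟨j, ?_⟩
    rw [← hnm, ← Nat.modEq_and_modEq_iff_modEq_mul hc]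
    refine ⟨?_, ((h2.pow j).trans (by rw [one_pow])).trans hk1.symm⟩
    rw [← ZMod.natCast_eq_natCast_iff, Nat.cast_pow, h3, ← Units.val_pow_eq_pow_val]
    exact congrArg Units.val hj

end Cfsg.Agent.H19
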