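import Mathlib
import Cfsg.Agent.S0200
import Cfsg.Agent.H3.Fitting

/-!
Normal sets of involutions whose products have order `1`, `2` or a fixed prime `p ≥ 5`:
local lemmas and the solvable three-generator case.
-/

set_option autoImplicit false

namespace Cfsg.Agent.H19.PT

open Cfsg Subgroup

universe u

/-- Products of two members of the normal set `D` have order `1`, `2` or `p`. -/
structure PT (p : ℕ) {G : Type u} [Group G] (D : Set G) : Prop where
  prime : p.Prime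
  five : 5 ≤ p
  sq : ∀ d ∈ D, d * d = 1
  conj : ∀ d ∈ D, ∀ g : G, g * d * g⁻¹ ∈ D
  prod : ∀ a ∈ D, ∀ b ∈ D, Commute a b ∨ (a * b) ^ p = 1

variable {G : Type u} [Group G] {p : ℕ} {D : Set G}

theorem exists_root {m : ℕ} (hp : 1 < p) (hm : m.Coprime p) :
    ∃ n : ℕ, ∀ g : G, g ^ p = 1 → (g ^ m) ^ n = g := by
  obtain ⟨n, -, hn⟩ := Nat.exists_mul_mod_eq_one_of_coprime hm hp
  refine ⟨n, fun g hg => ?_⟩
  rw [← pow_mul, ← Nat.div_add_mod (m * n) p, hn, pow_add, pow_mul, hg, one_pow, one_mul, pow_one]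

namespace PT

theorem cop (h : PT p D) {m : ℕ} (hm : m ∣ 6 ^ m) : m.Coprime p := by
  have h2 : Nat.Coprime 2 p := (Nat.coprime_primes Nat.prime_two h.prime).2 (by have := h.five; omega)
  have h3 : Nat.Coprime 3 p := (Nat.coprime_primes Nat.prime_three h.prime).2 (by have := h.five; omega)
  exact Nat.Coprime.coprime_dvd_left hm (Nat.Coprime.pow_left _ (Nat.Coprime.mul_left h2 h3))

theorem cop2 (h : PT p D) (k : ℕ) : (2 ^ k).Coprime p :=
  Nat.Coprime.pow_left _ (h.cop (by decide))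

theorem pow_inj (h : PT p D) {m : ℕ} (hm : m.Coprime p) {g k : G} (hg : g ^ p = 1) (hk : k ^ p = 1)
    (e : g ^ m = k ^ m) : g = k := by
  obtain ⟨n, hn⟩ := exists_root (G := G) h.prime.one_lt hm
  rw [← hn g hg, e, hn k hk]

theorem eq_one (h : PT p D) {m : ℕ} (hm : m.Coprime p) {g : G} (hg : g ^ p = 1) (e : g ^ m = 1) :
    g = 1 := h.pow_inj hm hg (one_pow _) (by rw [e, one_pow])

theorem comm_pow (h : PT p D) {m : ℕ} (hm : m.Coprime p) {g x : G} (hg : g ^ p = 1)
    (e : Commute (g ^ m) x) : Commute g x := by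
  obtain ⟨n, hn⟩ := exists_root (G := G) h.prime.one_lt hm
  rw [← hn g hg]; exact e.pow_left n

theorem inv (h : PT p D) {d : G} (hd : d ∈ D) : d⁻¹ = d := inv_eq_of_mul_eq_one_right (h.sq d hd)

theorem cancel (h : PT p D) {d : G} (hd : d ∈ D) (x : G) : d * (d * x) = x := by
  rw [← mul_assoc, h.sq d hd, one_mul]

theorem conj' (h : PT p D) {d e : G} (hd : d ∈ D) (he : e ∈ D) : e * d * e ∈ D := by
  have := h.conj d hd e
  rwa [h.inv he] at this

theorem pw (h : PT p D) {a b : G} (ha : a ∈ D) (hb : b ∈ D) (hc : ¬ Commute a b) : (a * b) ^ p = 1 :=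
  (h.prod a ha b hb).resolve_left hc

theorem eq_of_mul (h : PT p D) {a b : G} (hb : b ∈ D) (e : a * b = 1) : a = b := by
  rw [eq_inv_of_mul_eq_one_left e, h.inv hb]

theorem comm_of_two (h : PT p D) {a b : G} (ha : a ∈ D) (hb : b ∈ D) {k : ℕ}
    (e : (a * b) ^ 2 ^ k = 1) : Commute a b := by
  by_contra hc
  exact hc (h.eq_of_mul hb (h.eq_one (h.cop2 k) (h.pw ha hb hc) e) ▸ Commute.refl a)

theorem mul_sq (h : PT p D) {a b : G} (ha : a ∈ D) (hb : b ∈ D) (hc : Commute a b) :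
    a * b * (a * b) = 1 := by
  rw [mul_assoc, ← mul_assoc b, ← hc.eq, mul_assoc a, h.sq b hb, mul_one, h.sq a ha]

theorem comm_of_mem (h : PT p D) {Q : Subgroup G} (hQ : IsPGroup 2 Q) {a b : G} (ha : a ∈ D)
    (hb : b ∈ D) (e : a * b ∈ Q) : Commute a b := by
  obtain ⟨k, hk⟩ := hQ ⟨_, e⟩
  exact h.comm_of_two ha hb (k := k) (by simpa using congrArg Subtype.val hk)

theorem comm_of_conj (h : PT p D) {a b : G} (ha : a ∈ D) (hb : b ∈ D)
    (e : Commute a (b * a * b)) : Commute a b := by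
  refine h.comm_of_two ha hb (k := 2) ?_
  rw [← h.mul_sq ha (h.conj' ha hb) e]
  rw [show 2 ^ 2 = 4 from rfl]
  simp only [pow_succ, pow_zero, one_mul, mul_assoc]

/-- The midpoint is unique. -/
theorem mid_unique (h : PT p D) {x y z : G} (hx : x ∈ D) (hy : y ∈ D) (hz : z ∈ D)
    (hc : ¬ Commute x y) (e : y * x * y = z * x * z) : y = z := by
  have h1 : ¬ Commute x z := fun h1 => hc (h.comm_of_conj hx hy (by
    rw [e, ← h1.eq, mul_assoc, h.sq z hz, mul_one]))
  have := h.pow_inj (m := 2) (h.cop (by decide)) (h.pw hx hy hc) (h.pw hx hz h1) (by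
    rw [pow_two, pow_two, mul_assoc, mul_assoc, ← mul_assoc y, e, mul_assoc z])
  exact mul_left_cancel this

theorem exists_sqrt (h : PT p D) {y r : G} (hr : r ^ p = 1) (hy : y * r * y⁻¹ = r⁻¹) :
    ∃ s : G, s * s = r ∧ s ^ p = 1 ∧ y * s * y⁻¹ = s⁻¹ := by
  obtain ⟨n, hn⟩ := exists_root (G := G) h.prime.one_lt (h.cop (m := 2) (by decide))
  refine ⟨r ^ n, ?_, by rw [← pow_mul, mul_comm, pow_mul, hr, one_pow], by
    rw [← conj_pow, hy, inv_pow]⟩
  rw [← pow_two, ← pow_mul, mul_comm, pow_mul, hn r hr]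

/-- The midpoint exists. -/
theorem mid_exists (h : PT p D) {x y : G} (hx : x ∈ D) (hy : y ∈ D) (hc : ¬ Commute x y) :
    ∃ s ∈ D, s * x * s = y := by
  obtain ⟨t, h1, h2, h3⟩ := h.exists_sqrt (y := x) (h.pw hx hy hc) (by
    rw [mul_inv_rev, h.inv hx, h.inv hy, h.cancel hx])
  obtain ⟨w, h4, -, h6⟩ := h.exists_sqrt h2 h3
  have h7 : w⁻¹ * x * w⁻¹⁻¹ = x * t := by
    have : w⁻¹ * x = x * w := by rw [← h6, inv_mul_cancel_right]
    rw [this, ← h4, inv_inv, mul_assoc]
  refine ⟨x * t, h7 ▸ h.conj x hx _, ?_⟩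
  rw [mul_assoc (x * t), h.cancel hx, mul_assoc, h1, h.cancel hx]

/-- A member of `D` centralizing the product of two distinct commuting members centralizes both. -/
theorem f1 (h : PT p D) {x y d : G} (hx : x ∈ D) (hy : y ∈ D) (hd : d ∈ D)
    (hne : x ≠ y) (e : Commute d (x * y)) : Commute d x := by
  by_contra h1
  refine hne (h.mid_unique hd hx hy h1 ?_)
  calc x * d * x = x * (d * (x * y)) * y := by simp only [mul_assoc, h.sq y hy, mul_one]
    _ = y * d * y := by rw [e.eq]; simp only [mul_assoc, h.cancel hx]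

theorem f1' (h : PT p D) {x y d : G} (hx : x ∈ D) (hy : y ∈ D) (hd : d ∈ D)
    (hne : x ≠ y) (e : Commute d (x * y)) : Commute d y := by
  have := (h.f1 hx hy hd hne e).mul_right e
  rwa [h.cancel hx] at this

theorem f2 (h : PT p D) {x y d : G} (hx : x ∈ D) (hy : y ∈ D) (hd : d ∈ D)
    (hc : ¬ Commute x y) (e : Commute d (x * y)) : Commute d x := by
  by_contra h1
  have h2 : x * (x * y) * x⁻¹ = (x * y)⁻¹ := by
    rw [mul_inv_rev, h.inv hx, h.inv hy, h.cancel hx]
  have h3 : d * x * (x * y) * (d * x)⁻¹ = (x * y)⁻¹ := by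
    calc _ = d * (x * (x * y) * x⁻¹) * d⁻¹ := by group
      _ = _ := by rw [h2, e.inv_right.eq, mul_inv_cancel_right]
  have h4 : Commute ((d * x) ^ 2) (x * y) := by
    have : d * x * (d * x * (x * y) * (d * x)⁻¹) * (d * x)⁻¹ = x * y := by
      rw [h3, ← conj_inv, h3, inv_inv]
    calc (d * x) ^ 2 * (x * y) = d * x * (d * x * (x * y) * (d * x)⁻¹) * (d * x)⁻¹ * (d * x) ^ 2 := by
          rw [pow_two]; group
      _ = _ := by rw [this]
  rw [(h.comm_pow (h.cop (by decide)) (h.pw hd hx h1) h4).eq, mul_inv_cancel_right] at h3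
  exact hc (h.comm_of_two hx hy (k := 1) (by
    rw [pow_one, pow_two]; nth_rewrite 2 [h3]; exact mul_inv_cancel _))

theorem eq_of_cube (h : PT p D) {a c s t : G} (ha : a ∈ D) (hc : c ∈ D) (hs : s ∈ D) (ht : t ∈ D)
    (h1 : ¬ Commute a s) (h2 : ¬ Commute c t) (e1 : s * a * s = t * c * t)
    (e2 : a * s * a = c * t * c) : a = c := by
  have h3 : a * s = c * t := h.pow_inj (m := 3) (h.cop (by decide)) (h.pw ha hs h1) (h.pw hc ht h2) (by
    calc (a * s) ^ 3 = a * s * a * (s * a * s) := by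
          simp only [pow_succ, pow_zero, one_mul, mul_assoc]
      _ = (c * t) ^ 3 := by rw [e1, e2]; simp only [pow_succ, pow_zero, one_mul, mul_assoc])
  rw [h3] at e2
  exact mul_left_cancel e2

/-- The four-tuple. -/
theorem four (h : PT p D) {Q : Subgroup G} (hQ : IsPGroup 2 Q) {a b c : G} (ha : a ∈ D) (hb : b ∈ D)
    (hc : c ∈ D) (hac : Commute a c) (hne : a ≠ c) (hab : ¬ Commute a b)
    (haQ : a ∈ normalizer (Q : Set G)) (hbQ : b ∈ normalizer (Q : Set G)) (he : a * c ∈ Q) :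
    ∃ q ∈ Q, q * q = 1 ∧ Commute q (a * c) ∧ q * a * q ≠ a ∧ q * a * q ≠ c := by
  have hrp := h.pw ha hb hab
  have hrQ : a * b ∈ normalizer (Q : Set G) := mul_mem haQ hbQ
  have hee : a * c * (a * c) = 1 := h.mul_sq ha hc hac
  have hae : a * (a * c) * a⁻¹ = a * c := by
    rw [((Commute.refl a).mul_right hac).eq, mul_inv_cancel_right]
  have har : a * (a * b) * a⁻¹ = (a * b)⁻¹ := by
    rw [mul_inv_rev, h.inv ha, h.inv hb, h.cancel ha]
  have hnc : ∀ m : ℕ, m.Coprime p → ¬ Commute ((a * b) ^ m) (a * c) := fun m hm h1 => by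
    have h2 : Commute b (a * c) := by
      have := ((Commute.refl a).mul_right hac).mul_left (h.comm_pow hm hrp h1)
      rwa [h.cancel ha] at this
    exact hab (h.f1 ha hc hb hne h2).symm
  have hce : c = a * (a * c) := (h.cancel ha c).symm
  generalize a * c = e at *
  generalize a * b = r at *
  obtain ⟨E, hEd⟩ : ∃ E : ℤ → G, ∀ i, E i = r ^ i * e * (r ^ i)⁻¹ := ⟨_, fun _ => rfl⟩
  have hE : ∀ i : ℤ, E i ∈ Q := fun i => hEd i ▸ (mem_normalizer_iff.1 (zpow_mem hrQ i) e).1 he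
  have hEE : ∀ i : ℤ, E i * E i = 1 := fun i => by
    rw [hEd, conj_mul, hee, mul_one, mul_inv_cancel]
  have hEi : ∀ i : ℤ, (E i)⁻¹ = E i := fun i => inv_eq_of_mul_eq_one_right (hEE i)
  have haE : ∀ i : ℤ, a * E i * a⁻¹ = E (-i) := fun i => by
    rw [hEd, hEd, ← conj_mul, ← conj_mul, hae, ← conj_inv, ← conj_zpow, har, inv_zpow']
  have hsh : ∀ j i : ℤ, r ^ j * E i * (r ^ j)⁻¹ = E (j + i) := fun j i => by
    rw [hEd, hEd]; group
  have hE0 : E 0 = e := by simp [hEd]
  have hq : ∀ i, E i * a * E i = a * (E (-i) * E i) := fun i => by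
    rw [← haE i, h.inv ha]; simp only [mul_assoc, h.cancel ha]
  have hcomm : ∀ i : ℤ, Commute (E (-i)) (E i) := fun i => by
    have h0 : E i * a * E i ∈ D := by have := h.conj a ha (E i); rwa [hEi] at this
    have h1 : a * (E i * a * E i) = E (-i) * E i := by rw [hq, h.cancel ha]
    have h3 := h.mul_sq ha h0 (h.comm_of_mem hQ ha h0 (h1 ▸ mul_mem (hE _) (hE _)))
    rw [h1] at h3
    have h4 := inv_eq_of_mul_eq_one_right h3
    rw [mul_inv_rev, hEi, hEi] at h4
    exact h4.symm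
  have hnc' : ∀ m : ℕ, m.Coprime p → E m ≠ E 0 := fun m hm h1 => hnc m hm (by
    rw [hE0, hEd, zpow_natCast] at h1
    exact mul_inv_eq_iff_eq_mul.1 h1)
  have h02 : Commute (E 2) (E 0) := by
    have := (hcomm 1).conj (r ^ (1 : ℤ))
    rw [hsh, hsh] at this
    exact this.symm
  refine ⟨_, hE 2, hEE 2, hE0 ▸ h02, fun h1 => ?_, fun h1 => ?_⟩
  · rw [hq, mul_eq_left] at h1
    have h2 := eq_inv_of_mul_eq_one_left h1
    rw [hEi] at h2
    refine hnc' 4 (h.cop2 2) ?_
    have h3 := congrArg (fun x => r ^ (2 : ℤ) * x * (r ^ (2 : ℤ))⁻¹) h2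
    simp only [hsh] at h3
    exact h3.symm
  · have h2 : E (-2) * E 2 = E 0 := by
      rw [hq, hce] at h1
      rw [hE0]; exact mul_left_cancel h1
    have h3 := congrArg (fun x => r ^ (2 : ℤ) * x * (r ^ (2 : ℤ))⁻¹) h2
    have h4 := congrArg (fun x => r ^ (4 : ℤ) * x * (r ^ (4 : ℤ))⁻¹) h2
    simp only [← conj_mul, hsh] at h3 h4
    norm_num at h3 h4
    have h5 : E 4 = E 2 * E 0 := by rw [h02.eq, ← h3, ← mul_assoc, hEE, one_mul]
    rw [h5] at h4
    exact hnc' 6 (h.cop (by decide)) (mul_left_cancel h4)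

theorem image (h : PT p D) {H : Type u} [Group H] (f : G →* H) (hf : Function.Surjective f) :
    PT p (f '' D) := by
  refine ⟨h.prime, h.five, ?_, ?_, ?_⟩
  · rintro _ ⟨d, hd, rfl⟩; rw [← map_mul, h.sq d hd, map_one]
  · rintro _ ⟨d, hd, rfl⟩ g
    obtain ⟨g, rfl⟩ := hf g
    exact ⟨_, h.conj d hd g, by simp⟩
  · rintro _ ⟨a, ha, rfl⟩ _ ⟨b, hb, rfl⟩
    exact (h.prod a ha b hb).imp (fun e => e.map f) fun e => by rw [← map_mul, ← map_pow, e, map_one]

theorem sub (h : PT p D) (H : Subgroup G) : PT p {x : H | (x : G) ∈ D} := by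
  refine ⟨h.prime, h.five, fun d hd => Subtype.ext (h.sq d hd), fun d hd g => h.conj d hd g,
    fun a ha b hb => (h.prod a ha b hb).imp (fun e => Subtype.ext e.eq) fun e => Subtype.ext e⟩

theorem isConj (h : PT p D) {a b : G} (ha : a ∈ D) (hb : b ∈ D) (hc : ¬ Commute a b) : IsConj a b := by
  obtain ⟨s, hs, e⟩ := h.mid_exists ha hb hc
  exact isConj_iff.2 ⟨s, by rw [h.inv hs, e]⟩

end PT

/-- The solvable three-generator case. -/
theorem mem_pCore {G : Type u} [Group G] [Finite G] [Group.IsSolvable G] {D : Set G} (h : PT p D)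
    {a b c : G} (ha : a ∈ D) (hb : b ∈ D) (hc : c ∈ D) (hac : Commute a c) (hab : ¬ Commute a b)
    (hcb : ¬ Commute c b) : a * c ∈ pCore 2 G := by
  induction hn : Nat.card G using Nat.strong_induction_on generalizing G with
  | _ n ih =>
  by_contra hcon
  have hne : a ≠ c := by rintro rfl; exact hcon (by rw [h.sq a ha]; exact one_mem _)
  have hee := h.mul_sq ha hc hac
  have he1 : a * c ≠ 1 := fun e => hne (h.eq_of_mul hc e)
  obtain ⟨V, r, hr, hVn, hV1, -, ⟨hVc, hVr⟩, -⟩ := H3.exists_minimal_normal_elementary_le (⊤ : Subgroup G)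
    inferInstance (fun e => he1 (by simpa using e.le (mem_top (a * c))))
  set π := QuotientGroup.mk' V
  have hπ : Function.Surjective π := QuotientGroup.mk'_surjective V
  have hker : ∀ x, π x = 1 ↔ x ∈ V := fun x => QuotientGroup.eq_one_iff x
  have h' := h.image π hπ
  have hmem : ∀ x ∈ D, π x ∈ π '' D := fun x hx => ⟨x, hx, rfl⟩
  have hpr : ∀ x ∈ D, ∀ y ∈ D, ¬ Commute x y → Commute (π x) (π y) → π x = π y ∧ r = p :=
    fun x hx y hy h1 h2 => by
    have h3 : π x * π y = 1 := h'.eq_one (h.cop2 1) (by rw [← map_mul, ← map_pow, h.pw hx hy h1, map_one])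
      (by rw [pow_one, pow_two]; exact h'.mul_sq (hmem x hx) (hmem y hy) h2)
    refine ⟨h'.eq_of_mul (hmem y hy) h3, ?_⟩
    by_contra h4
    refine h1 (h.eq_of_mul hy (h.eq_one ((Nat.coprime_primes hr h.prime).2 h4) (h.pw hx hy h1)
      (hVr _ ((hker _).1 (by rw [map_mul, h3])))) ▸ Commute.refl x)
  have hVe : r ≠ 2 → π a ≠ π c := fun h2 e => by
    have h3 := hVr _ ((hker (a * c)).1 (by rw [map_mul, e]; exact h'.sq _ (hmem c hc)))
    have h4 : orderOf (a * c) ∣ Nat.gcd r 2 :=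
      Nat.dvd_gcd (orderOf_dvd_of_pow_eq_one h3) (orderOf_dvd_of_pow_eq_one (by rw [pow_two, hee]))
    rw [(Nat.coprime_primes hr Nat.prime_two).2 h2] at h4
    exact he1 (orderOf_eq_one_iff.1 (Nat.dvd_one.1 h4))
  have hp2 : p ≠ 2 := by have := h.five; omega
  have hab' : ¬ Commute (π a) (π b) := fun e => by
    obtain ⟨e1, e2⟩ := hpr a ha b hb hab e
    exact hVe (e2 ▸ hp2) (e1.trans (hpr c hc b hb hcb (e1 ▸ (hac.map π).symm)).1.symm)
  have hcb' : ¬ Commute (π c) (π b) := fun e => by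
    obtain ⟨e1, e2⟩ := hpr c hc b hb hcb e
    exact hVe (e2 ▸ hp2) ((hpr a ha b hb hab (e1 ▸ hac.map π)).1.trans e1.symm)
  have hlt : Nat.card (G ⧸ V) < n := by
    rw [← hn, card_eq_card_quotient_mul_card_subgroup V]
    exact lt_mul_of_one_lt_right Nat.card_pos ((one_lt_card_iff_ne_bot V).2 hV1)
  have hq := ih _ hlt h' (hmem a ha) (hmem b hb) (hmem c hc) (hac.map π) hab' hcb' rfl
  by_cases hr2 : r = 2
  · subst hr2
    refine hcon (H3.comap_pCore_le π ?_ (show π (a * c) ∈ _ by rwa [map_mul]))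
    rw [QuotientGroup.ker_mk']
    exact fun x => ⟨1, Subtype.ext (by simpa using hVr x x.2)⟩
  have hodd : ∀ w ∈ V, w * w = 1 → w = 1 := fun w hw e => by
    have h4 : orderOf w ∣ Nat.gcd r 2 :=
      Nat.dvd_gcd (orderOf_dvd_of_pow_eq_one (hVr w hw)) (orderOf_dvd_of_pow_eq_one (by rw [pow_two, e]))
    rw [(Nat.coprime_primes hr Nat.prime_two).2 hr2] at h4
    exact orderOf_eq_one_iff.1 (Nat.dvd_one.1 h4)
  have hVV : ∀ v ∈ V, ∀ w ∈ V, v * w = w * v := fun v hv w hw =>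
    congrArg Subtype.val (hVc.is_comm.comm ⟨v, hv⟩ ⟨w, hw⟩)
  -- the four-tuple in the quotient
  obtain ⟨q', hq', hqq, hqe, hq1, hq2⟩ := h'.four (H3.pCore_isPGroup 2 _) (hmem a ha) (hmem b hb)
    (hmem c hc) (hac.map π) (hVe hr2) hab' (le_normalizer_of_normal (mem_top _))
    (le_normalizer_of_normal (mem_top _)) hq
  obtain ⟨q, rfl⟩ := hπ q'
  have hqi : π q⁻¹ = π q := by rw [map_inv]; exact inv_eq_of_mul_eq_one_right hqq
  -- orthogonality
  have horth : ∀ x ∈ D, π x ≠ π a → Commute (π x) (π a) → ∀ v ∈ V, Commute x (a * (v * a * v⁻¹)) :=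
    fun x hx h1 h2 v hv => by
    have h3 : ∀ w ∈ V, Commute x (w * a * w⁻¹) := fun w hw => by
      by_contra h4
      have h5 : π (w * a * w⁻¹) = π a := by rw [map_mul, map_mul, map_inv, (hker w).2 hw]; simp
      exact h1 ((hpr x hx _ (h.conj a ha w) h4 (h5 ▸ h2)).1.trans h5)
    exact (by simpa using h3 1 (one_mem _) : Commute x a).mul_right (h3 v hv)
  have haV : ∀ v ∈ V, Commute a v := fun v hv => by
    set w := a * (v * a * v⁻¹) with hw
    have hwV : w ∈ V := by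
      have := mul_mem (hVn.conj_mem v hv a) (inv_mem hv)
      rwa [h.inv ha, mul_assoc, mul_assoc, ← mul_assoc v] at this
    have hqa : π (q * a * q⁻¹) = π q * π a * π q := by rw [map_mul, map_mul, hqi]
    have hqc : π (q * c * q⁻¹) = π q * π a * π q * (π a * π c) := by
      rw [map_mul, map_mul, hqi, mul_assoc _ (π q), hqe.eq, ← mul_assoc, mul_assoc (π q) (π a),
        h'.cancel (hmem a ha)]
    have hQ := H3.pCore_isPGroup 2 (G ⧸ V)
    have hn : (pCore 2 (G ⧸ V)).Normal := inferInstance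
    have hm : π q * π a * π q * π a ∈ pCore 2 (G ⧸ V) := by
      have := mul_mem hq' (hn.conj_mem _ hq' (π a))
      rwa [h'.inv (hmem a ha), ← mul_assoc, ← mul_assoc] at this
    have h1 := horth c hc (hVe hr2).symm (hac.map π).symm v hv
    have h2 := horth _ (h.conj a ha q) (hqa ▸ hq1)
      (h'.comm_of_mem hQ (hmem _ (h.conj a ha q)) (hmem a ha) (hqa ▸ hm)) v hv
    have h3 := horth _ (h.conj c hc q) (by
        rw [hqc]
        intro e
        apply hq2
        have h5 : π q * π a * π q = π a * (π a * π c)⁻¹ := eq_mul_inv_of_mul_eq e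
        rw [h5, mul_inv_rev, h'.inv (hmem a ha), h'.inv (hmem c hc), ← (hac.map π).eq,
          h'.cancel (hmem a ha)])
      (h'.comm_of_mem hQ (hmem _ (h.conj c hc q)) (hmem a ha) (by
        rw [hqc, mul_assoc _ _ (π a), mul_assoc (π a), ← (hac.map π).eq, ← mul_assoc]
        exact mul_mem hm hq)) v hv
    have h4 : a * (c * (q * a * q⁻¹) * (q * c * q⁻¹)) ∈ V := by
      rw [← hker, map_mul, map_mul, map_mul, hqa, hqc, ← mul_assoc (π a), ← mul_assoc (π a),
        mul_assoc (π a * π c), ← mul_assoc (π q * π a * π q),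
        h'.sq _ (hqa ▸ hmem _ (h.conj a ha q)), one_mul]
      exact h'.mul_sq (hmem a ha) (hmem c hc) (hac.map π)
    have h5 : Commute (a * (c * (q * a * q⁻¹) * (q * c * q⁻¹))) w := hVV _ h4 _ hwV
    have h6 : Commute a w := by
      have := h5.mul_left ((h1.mul_left h2).mul_left h3).inv_left
      rwa [mul_inv_cancel_right] at this
    have h7 : w = 1 := hodd w hwV (h.mul_sq ha (h.conj a ha v) (by
      have := (Commute.refl a).mul_right h6
      rwa [hw, h.cancel ha] at this))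
    have h8 := h.eq_of_mul (h.conj a ha v) h7
    exact (mul_inv_eq_iff_eq_mul.1 h8.symm).symm
  have hcV : ∀ v ∈ V, Commute c v := fun v hv => by
    obtain ⟨g, rfl⟩ := isConj_iff.1 ((h.isConj ha hb hab).trans (h.isConj hc hb hcb).symm)
    have := (haV _ (hVn.conj_mem v hv g⁻¹)).conj g
    simpa [mul_assoc] using this
  obtain ⟨k, hk1, hk2, hk3⟩ := S0200.result (a * c) (orderOf_eq_prime (by rw [pow_two, hee]) he1)
    fun N _ hN hm => hcon (H3.le_pCore hN hm)
  have hkV : k ∈ V := by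
    have h1 : π k * π k ∈ pCore 2 (G ⧸ V) := by
      have hn : (pCore 2 (G ⧸ V)).Normal := inferInstance
      have h2 := mul_mem (hn.conj_mem _ hq (π k)) (inv_mem hq)
      have h3 : π k * π (a * c) * (π k)⁻¹ * (π (a * c))⁻¹ = π k * π k := by
        rw [mul_assoc (π k), mul_assoc (π k), ← map_inv, ← map_inv, ← map_mul, ← map_mul, ← conj_inv, hk3,
          inv_inv]
      rwa [← map_mul π a c, h3] at h2
    obtain ⟨j, hj⟩ := H3.pCore_isPGroup 2 (G ⧸ V) ⟨_, h1⟩
    have h2 : π k ^ 2 ^ (j + 1) = 1 := by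
      rw [pow_succ', pow_mul, pow_two]; simpa using congrArg Subtype.val hj
    have h4 : orderOf (π k) ∣ Nat.gcd (orderOf k) (2 ^ (j + 1)) :=
      Nat.dvd_gcd (orderOf_map_dvd π k) (orderOf_dvd_of_pow_eq_one h2)
    rw [(Nat.coprime_two_right.2 hk2).pow_right] at h4
    exact (hker k).1 (orderOf_eq_one_iff.1 (Nat.dvd_one.1 h4))
  rw [((haV k hkV).mul_left (hcV k hkV)).eq, mul_inv_cancel_right] at hk3
  exact hk1 (hodd k hkV (by nth_rewrite 2 [hk3]; exact mul_inv_cancel k))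

end Cfsg.Agent.H19.PT
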