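import Cfsg.Agent.H19.PT1
import Cfsg.Agent.S0215
import Cfsg.Agent.S0205
import Cfsg.Agent.H67.Hall

/-!
`{2,p}`-transposition groups: the minimal counterexample, the key lemma and the case in which the
relation `x^⊥ = y^⊥` is trivial.
-/

set_option autoImplicit false

namespace Cfsg.Agent.H19.PT

open Cfsg Subgroup Cfsg.Agent.H63

universe u

/-- The minimal counterexample. -/
structure MC (p : ℕ) {G : Type u} [Group G] (D : Set G) : Prop extends PT p D where
  ne_one : ∀ d ∈ D, d ≠ 1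
  cls : ∀ a ∈ D, ∀ b ∈ D, IsConj a b
  ne : D.Nonempty
  gen : closure D = ⊤
  rad : ∀ N : Subgroup G, N.Normal → Group.IsSolvable N → N = ⊥
  ih : ∀ X : Set G, X ⊆ D → closure X ≠ ⊤ → Group.IsSolvable (closure X)

variable {G : Type u} [Group G] {p : ℕ} {D : Set G}

/-- `x^⊥ = y^⊥`. -/
def Eqv (D : Set G) (a b : G) : Prop := ∀ x ∈ D, Commute a x ↔ Commute b x

theorem Eqv.refl (a : G) : Eqv D a a := fun _ _ => Iff.rfl
theorem Eqv.symm {a b : G} (h : Eqv D a b) : Eqv D b a := fun x hx => (h x hx).symm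
theorem Eqv.trans {a b c : G} (h : Eqv D a b) (h' : Eqv D b c) : Eqv D a c :=
  fun x hx => (h x hx).trans (h' x hx)
theorem Eqv.comm {a b : G} (h : Eqv D a b) (hb : b ∈ D) : Commute a b := (h b hb).2 (Commute.refl b)

theorem comm_conj_iff {a x g : G} : Commute (g * a * g⁻¹) x ↔ Commute a (g⁻¹ * x * g⁻¹⁻¹) :=
  ⟨fun e => by simpa [mul_assoc] using e.conj g⁻¹, fun e => by simpa [mul_assoc] using e.conj g⟩

theorem Eqv.conj (h : PT p D) {a b : G} (e : Eqv D a b) (g : G) :
    Eqv D (g * a * g⁻¹) (g * b * g⁻¹) := fun x hx => by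
  rw [comm_conj_iff, comm_conj_iff]; exact e _ (h.conj x hx _)

theorem isPGroup_closure (h : PT p D) {X : Set G} (hX : X ⊆ D) (hc : ∀ a ∈ X, ∀ b ∈ X, Commute a b) :
    IsPGroup 2 (closure X) := by
  have h1 : ∀ a ∈ closure X, ∀ b ∈ closure X, Commute a b := fun a ha b hb => by
    induction ha, hb using closure_induction₂ with
    | mem x y hx hy => exact hc x hx y hy
    | one_left => exact Commute.one_left _
    | one_right => exact Commute.one_right _
    | mul_left _ _ _ _ _ _ h1 h2 => exact h1.mul_left h2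
    | mul_right _ _ _ _ _ _ h1 h2 => exact h1.mul_right h2
    | inv_left _ _ _ _ h1 => exact h1.inv_left
    | inv_right _ _ _ _ h1 => exact h1.inv_right
  rintro ⟨x, hx⟩
  refine ⟨1, Subtype.ext ?_⟩
  change x ^ 2 ^ 1 = 1
  rw [pow_one]
  induction hx using closure_induction with
  | mem x hx => rw [pow_two, h.sq x (hX hx)]
  | one => exact one_pow _
  | mul x y hx hy h2 h3 => rw [(h1 x hx y hy).mul_pow, h2, h3, one_mul]
  | inv x _ h2 => rw [inv_pow, h2, inv_one]

variable [Finite G]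

namespace MC

theorem two (h : MC p D) {d : G} (hd : d ∈ D) : orderOf d = 2 :=
  orderOf_eq_prime (by rw [pow_two, h.sq d hd]) (h.ne_one d hd)

theorem two_bot (h : MC p D) {N : Subgroup G} (hN : N.Normal) (h2 : IsPGroup 2 N) : N = ⊥ :=
  h.rad N hN (by have := h2.isNilpotent; infer_instance)

omit [Finite G] in
theorem eq_one_of_central (h : MC p D) {x : G} (hx : ∀ g, Commute x g) : x = 1 := by
  have h1 : center G = ⊥ := h.rad _ inferInstance (Group.isSolvable_of_comm fun a b =>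
    Subtype.ext (mem_center_iff.1 b.2 a))
  exact mem_bot.1 (h1 ▸ mem_center_iff.2 fun g => (hx g).symm.eq)

omit [Finite G] in
theorem cent_ne (h : MC p D) {x : G} (hx : x ≠ 1) : centralizer ({x} : Set G) ≠ ⊤ := fun e =>
  hx (h.eq_one_of_central fun g => (mem_centralizer_singleton_iff.1 (e.ge (mem_top g))).symm)

omit [Finite G] in
theorem eq_one_of_D (h : MC p D) {x : G} (hx : ∀ d ∈ D, Commute x d) : x = 1 := by
  by_contra hne
  exact h.cent_ne hne (eq_top_iff.2 (h.gen.ge.trans ((closure_le _).2 fun d hd =>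
    mem_centralizer_singleton_iff.2 (hx d hd).symm.eq)))

theorem exists_Q (h : MC p D) {a b c : G} (ha : a ∈ D) (hb : b ∈ D) (hc : c ∈ D) (hac : Commute a c)
    (hab : ¬ Commute a b) (hcb : ¬ Commute c b) {K : Subgroup G} (hK : K ≠ ⊤) (haK : a ∈ K)
    (hbK : b ∈ K) (hcK : c ∈ K) : ∃ Q : Subgroup G, IsPGroup 2 Q ∧ a ∈ normalizer (Q : Set G) ∧
      b ∈ normalizer (Q : Set G) ∧ a * c ∈ Q := by
  set H := closure ({a, b, c} : Set G)
  have hH : H ≠ ⊤ := fun e => hK (eq_top_iff.2 (e.ge.trans ((closure_le _).2 (by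
    rintro x (rfl | rfl | rfl) <;> assumption))))
  have := h.ih {a, b, c} (by rintro x (rfl | rfl | rfl) <;> assumption) hH
  have h1 : a ∈ H := subset_closure (by simp)
  have h2 : b ∈ H := subset_closure (by simp)
  have h3 : c ∈ H := subset_closure (by simp)
  have h4 := mem_pCore (h.toPT.sub H) (a := ⟨a, h1⟩) (b := ⟨b, h2⟩) (c := ⟨c, h3⟩) ha hb hc
    (Subtype.ext hac.eq) (fun e => hab (congrArg Subtype.val e.eq))
    (fun e => hcb (congrArg Subtype.val e.eq))
  have h5 := le_normalizer.trans (H3.normalizer_le_normalizer_map_pCore (p := 2) H)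
  exact ⟨_, H3.map_pCore_isPGroup H, h5 h1, h5 h2, ⟨_, h4, rfl⟩⟩

theorem s1 (h : MC p D) {a b c : G} (ha : a ∈ D) (hb : b ∈ D) (hc : c ∈ D) (hac : Commute a c)
    (hab : ¬ Commute a b) (hcb : ¬ Commute c b) {K : Subgroup G} (hK : K ≠ ⊤) (haK : a ∈ K)
    (hbK : b ∈ K) (hcK : c ∈ K) : Commute b (a * c * b * (a * c)⁻¹) := by
  obtain ⟨Q, hQ, -, h2, h3⟩ := h.exists_Q ha hb hc hac hab hcb hK haK hbK hcK
  refine h.comm_of_mem hQ hb (h.conj b hb _) ?_
  have := mul_mem ((mem_normalizer_iff.1 h2 _).1 h3) (inv_mem h3)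
  rwa [h.inv hb, mul_assoc, mul_assoc, ← mul_assoc (a * c)] at this

theorem ft4_aux (h : MC p D) {a c a' c' : G} (ha : a ∈ D) (hc : c ∈ D) (ha' : a' ∈ D) (hc' : c' ∈ D)
    (hac : Commute a c) (h1 : Commute a a') (h2 : Commute c a') (e : a * c = a' * c') (n0 : a ≠ c)
    (n1 : a' ≠ a) (n2 : a' ≠ c) {d : G} (hd : d ∈ D) (hda : Commute a d) : Commute c d := by
  by_contra hcd
  have ec : c' = a' * (a * c) := by rw [e, h.cancel ha']
  have h3 : Commute a c' := ec ▸ h1.mul_right ((Commute.refl a).mul_right hac)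
  have h4 : Commute a' c' := ec ▸ (Commute.refl a').mul_right (h1.symm.mul_right h2.symm)
  have h5 : ¬ Commute a' d := fun h5 => by
    have h6 : c * c' = a * a' := by
      rw [ec, ← mul_assoc, h2.eq, hac.eq, mul_assoc, h.cancel hc, h1.eq]
    refine hcd (h.f1 hc hc' hd (fun e' => n1 ?_) (h6 ▸ hda.symm.mul_right h5.symm)).symm
    rw [← e'] at e
    exact (mul_right_cancel e).symm
  have h6 : ¬ Commute c' d := fun h6 => by
    have h7 : c * a' = a * c' := by
      rw [ec, ← mul_assoc, h1.eq, mul_assoc, h.cancel ha, h2.eq]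
    exact hcd (h.f1 hc ha' hd n2.symm (h7 ▸ hda.symm.mul_right h6.symm)).symm
  have h7 := h.s1 ha' hd hc' h4 h5 h6 (h.cent_ne (h.ne_one a ha))
    (mem_centralizer_singleton_iff.2 h1.symm.eq) (mem_centralizer_singleton_iff.2 hda.symm.eq)
    (mem_centralizer_singleton_iff.2 h3.symm.eq)
  rw [← e, hac.eq, mul_assoc c, hda.eq, mul_inv_rev, mul_assoc, mul_assoc, mul_inv_cancel_left,
    h.inv hc, ← mul_assoc] at h7
  exact hcd (h.comm_of_conj hd hc h7).symm

/-- Four distinct commuting members of `D` with product `1` are equivalent. -/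
theorem ft4 (h : MC p D) {a c a' c' : G} (ha : a ∈ D) (hc : c ∈ D) (ha' : a' ∈ D) (hc' : c' ∈ D)
    (hac : Commute a c) (h1 : Commute a a') (h2 : Commute c a') (e : a * c = a' * c') (n0 : a ≠ c)
    (n1 : a' ≠ a) (n2 : a' ≠ c) : Eqv D a c := fun _ hd =>
  ⟨h.ft4_aux ha hc ha' hc' hac h1 h2 e n0 n1 n2 hd,
    h.ft4_aux hc ha ha' hc' hac.symm h2 h1 (hac.eq ▸ e) n0.symm n2 n1 hd⟩

/-- The key lemma. -/
theorem kl (h : MC p D) {a b c : G} (ha : a ∈ D) (hb : b ∈ D) (hc : c ∈ D) (hac : Commute a c)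
    (hab : ¬ Commute a b) (hcb : ¬ Commute c b) {K : Subgroup G} (hK : K ≠ ⊤) (haK : a ∈ K)
    (hbK : b ∈ K) (hcK : c ∈ K) : Eqv D a c := by
  by_cases hne : a = c
  · exact hne ▸ Eqv.refl a
  obtain ⟨Q, hQ, h1, h2, h3⟩ := h.exists_Q ha hb hc hac hab hcb hK haK hbK hcK
  obtain ⟨q, hq, hqq, hqe, n1, n2⟩ := h.four hQ ha hb hc hac hne hab h1 h2 h3
  have hqi : q⁻¹ = q := inv_eq_of_mul_eq_one_right hqq
  have hD : ∀ x ∈ D, q * x * q ∈ D := fun x hx => by have := h.conj x hx q; rwa [hqi] at this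
  have h4 : a * (q * a * q) ∈ Q := by
    have := mul_mem ((mem_normalizer_iff.1 h1 _).1 hq) hq
    rwa [h.inv ha, mul_assoc, mul_assoc, ← mul_assoc q] at this
  refine h.ft4 ha hc (hD a ha) (hD c hc) hac (h.comm_of_mem hQ ha (hD a ha) h4)
    (h.comm_of_mem hQ hc (hD a ha) ?_) ?_ hne n1 n2
  · have := mul_mem h3 h4
    rwa [hac.eq, mul_assoc, h.cancel ha] at this
  · calc a * c = q * (a * c) * q := by rw [hqe.eq, mul_assoc, hqq, mul_one]
      _ = q * a * (q * q) * c * q := by rw [hqq, mul_one, mul_assoc q a c]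
      _ = _ := by simp only [mul_assoc]

/-- The line argument. -/
theorem g1 (h : MC p D) {s t b : G} (hs : s ∈ D) (ht : t ∈ D) (hb : b ∈ D) (hst : Commute s t)
    (hne : ¬ Eqv D s t) (hc : Commute b (s * t * b * (s * t)⁻¹)) : s * t * b * (s * t)⁻¹ = b := by
  by_contra hcon
  have hn : s ≠ t := fun e => hne (e ▸ Eqv.refl s)
  have hei : (s * t)⁻¹ = s * t := inv_eq_of_mul_eq_one_right (h.mul_sq hs ht hst)
  have hcD := h.conj b hb (s * t)
  have hc1 : s * t * b * (s * t)⁻¹ = t * (s * b * s) * t := by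
    rw [hei]; nth_rewrite 1 [hst.eq]; simp only [mul_assoc]
  have hc2 : s * t * b * (s * t)⁻¹ = s * (t * b * t) * s := by
    rw [hei]; nth_rewrite 2 [hst.eq]; simp only [mul_assoc]
  have hbs : ¬ Commute b s := fun e => by
    rw [hc1, ← e.eq, mul_assoc b, h.sq s hs, mul_one] at hc hcon
    exact hcon (by rw [← (h.comm_of_conj hb ht hc).eq, mul_assoc, h.sq t ht, mul_one])
  generalize hcdef : s * t * b * (s * t)⁻¹ = c at *
  have hz : Commute (b * c) (s * t) := by
    have h1 : s * t * c * (s * t)⁻¹ = b := by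
      rw [← hcdef, hei]
      calc _ = s * t * (s * t) * b * (s * t * (s * t)) := by simp only [mul_assoc]
        _ = b := by rw [h.mul_sq hs ht hst, one_mul, mul_one]
    have h2 : s * t * (b * c) * (s * t)⁻¹ = b * c := by rw [← conj_mul, hcdef, h1, hc.eq]
    exact (mul_inv_eq_iff_eq_mul.1 h2).symm
  have hzi : (b * c)⁻¹ = b * c := inv_eq_of_mul_eq_one_right (h.mul_sq hb hcD hc)
  have hs' := h.conj s hs (b * c)
  have h3 : Commute (b * c * s * (b * c)⁻¹) (s * t) := by
    have := ((Commute.refl s).mul_right hst).conj (b * c)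
    rwa [hz.eq, mul_inv_cancel_right] at this
  have h4 : b * c * s * (b * c)⁻¹ ≠ s := fun e =>
    hbs (h.f1 hb hcD hs (Ne.symm hcon) (mul_inv_eq_iff_eq_mul.1 e).symm).symm
  have h5 : b * c * s * (b * c)⁻¹ = t := by
    by_contra h5
    refine hne (h.ft4 hs ht hs' (h.conj t ht (b * c)) hst (h.f1 hs ht hs' hn h3).symm
      (h.f1' hs ht hs' hn h3).symm ?_ hn h4 h5)
    rw [conj_mul, hz.eq, mul_inv_cancel_right]
  have h6 : s * b * s = t * c * t := by
    rw [hc1]; simp only [mul_assoc, h.cancel ht, h.sq t ht, mul_one]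
  have h7 : b * s * b = c * t * c := by
    rw [← h5, hzi]; nth_rewrite 1 [hc.eq]
    simp only [mul_assoc, h.cancel hcD, h.sq c hcD, mul_one]
  refine hcon (h.eq_of_cube hb hcD hs ht hbs (fun e => hbs (h.comm_of_conj hb hs ?_)) h6 h7).symm
  rwa [h6, ← e.eq, mul_assoc, h.sq t ht, mul_one]

end MC

/-- `f` is the product of the members of `E`. -/
def IsProd (E : Set G) (f : G) : Prop := ∃ l : List G, l.Nodup ∧ (∀ x, x ∈ l ↔ x ∈ E) ∧ l.prod = f

omit [Finite G] in
theorem IsProd.unique {E : Set G} (hc : ∀ a ∈ E, ∀ b ∈ E, Commute a b) {f f' : G} (h : IsProd E f)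
    (h' : IsProd E f') : f = f' := by
  obtain ⟨l, h1, h2, rfl⟩ := h
  obtain ⟨l', h3, h4, rfl⟩ := h'
  exact ((List.perm_ext_iff_of_nodup h1 h3).2 fun x => (h2 x).trans (h4 x).symm).prod_eq'
    (List.pairwise_of_forall_mem_list fun a ha b hb => hc a ((h2 a).1 ha) b ((h2 b).1 hb))

omit [Finite G] in
theorem IsProd.conj {E : Set G} {f : G} (h : IsProd E f) (g : G) :
    IsProd ((fun x => g * x * g⁻¹) '' E) (g * f * g⁻¹) := by
  obtain ⟨l, h1, h2, rfl⟩ := h
  refine ⟨l.map (MulAut.conj g), h1.map (MulAut.conj g).injective, fun x => ?_, ?_⟩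
  · simp only [List.mem_map, h2, MulAut.conj_apply, Set.mem_image]
  · rw [← map_list_prod, MulAut.conj_apply]

omit [Finite G] in
theorem IsProd.mem {E : Set G} {f : G} (h : IsProd E f) {K : Subgroup G} (hK : ∀ x ∈ E, x ∈ K) :
    f ∈ K := by
  obtain ⟨l, -, h2, rfl⟩ := h
  exact K.list_prod_mem fun x hx => hK x ((h2 x).1 hx)

omit [Finite G] in
theorem IsProd.comm {E : Set G} {f : G} (h : IsProd E f) {d : G} (hd : ∀ x ∈ E, Commute d x) :
    Commute d f :=
  (mem_centralizer_singleton_iff.1 (h.mem (K := centralizer {d}) fun x hx =>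
    mem_centralizer_singleton_iff.2 (hd x hx).symm.eq)).symm

omit [Finite G] in
theorem IsProd.comm_of {E : Set G} (hc : ∀ a ∈ E, ∀ b ∈ E, Commute a b) {f : G} (h : IsProd E f)
    {d x : G} (hx : x ∈ E) (hf : Commute d f) (hd : ∀ y ∈ E, y ≠ x → Commute d y) : Commute d x := by
  classical
  obtain ⟨l, h1, h2, rfl⟩ := h
  rw [(List.perm_cons_erase ((h2 x).2 hx)).prod_eq'
    (List.pairwise_of_forall_mem_list fun a ha b hb => hc a ((h2 a).1 ha) b ((h2 b).1 hb)),
    List.prod_cons] at hf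
  have h3 : Commute d (l.erase x).prod := Commute.list_prod_right _ _ fun y hy => by
    rw [h1.mem_erase_iff] at hy
    exact hd y ((h2 y).1 hy.2) hy.1
  have := hf.mul_right h3.inv_right
  rwa [mul_inv_cancel_right] at this

theorem exists_isProd (E : Set G) : ∃ f, IsProd E f :=
  ⟨_, (Set.toFinite E).toFinset.toList, Finset.nodup_toList _, fun x => by simp, rfl⟩

theorem ncard_le (h : PT p D) {S T : Subgroup G} (hS : IsSyl 2 S ⊤) (hT : IsPGroup 2 T) :
    (D ∩ T).ncard ≤ (D ∩ S).ncard := by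
  obtain ⟨g, -, hg⟩ := H67.exists_cj_le_syl hS le_top hT
  exact Set.ncard_le_ncard_of_injOn (fun x => g * x * g⁻¹)
    (fun x hx => ⟨h.conj x hx.1 g, hg (H67.conj_mem_cj hx.2)⟩)
    (fun x _ y _ e => by simpa using e)

/-- The case of the trivial equivalence relation. -/
theorem MC.case1 (h : MC p D) (htr : ∀ a ∈ D, ∀ b ∈ D, Eqv D a b → a = b) : False := by
  obtain ⟨P⟩ : Nonempty (Sylow 2 G) := inferInstance
  have hS := H67.syl_top P
  set E := D ∩ (P : Subgroup G) with hE
  have hcomm : ∀ T : Subgroup G, IsPGroup 2 T → ∀ a ∈ D ∩ T, ∀ b ∈ D ∩ T, Commute a b :=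
    fun T hT a ha b hb => h.comm_of_mem hT ha.1 hb.1 (mul_mem ha.2 hb.2)
  have hEc := hcomm _ P.isPGroup'
  obtain ⟨f, hf⟩ := exists_isProd E
  have hf1 : f ≠ 1 := by
    rintro rfl
    obtain ⟨d, hd⟩ := h.ne
    obtain ⟨g, -, hg⟩ := H67.exists_cj_le_syl hS le_top
      (isPGroup_closure h.toPT (X := {d}) (by simpa using hd) (by simp))
    have ha : g * d * g⁻¹ ∈ E := ⟨h.conj d hd g, hg (H67.conj_mem_cj (subset_closure rfl))⟩
    generalize g * d * g⁻¹ = a at ha
    have key : ∀ a ∈ E, ∀ c ∈ E, ∀ d ∈ D, Commute a d → Commute c d := fun a ha c hc d hd had => by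
      by_contra hcd
      refine hcd (hf.comm_of hEc hc (Commute.one_right d) fun y hy hne => ?_).symm
      by_contra hy'
      exact hne (htr _ hy.1 _ hc.1 (h.kl hy.1 hd hc.1 (hEc _ hy _ hc) (fun e => hy' e.symm) hcd
        (h.cent_ne (h.ne_one a ha.1)) (mem_centralizer_singleton_iff.2 (hEc _ hy _ ha).eq)
        (mem_centralizer_singleton_iff.2 had.symm.eq) (mem_centralizer_singleton_iff.2 (hEc _ hc _ ha).eq)))
    refine h.ne_one a ha.1 (h.eq_one_of_central fun x => (hf.comm_of hEc ha (Commute.one_right x)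
      fun y hy hne => absurd (htr _ hy.1 _ ha.1 fun d hd => ⟨key _ hy _ ha d hd, key _ ha _ hy d hd⟩)
        hne).symm)
  have hfP : f ∈ (P : Subgroup G) := hf.mem fun x hx => hx.2
  have hff : f ^ 2 = 1 := by
    have h1 := hf.mem (K := closure E) fun x hx => subset_closure hx
    clear hf1 hfP hf
    induction h1 using closure_induction with
    | mem x hx => rw [pow_two, h.sq x hx.1]
    | one => exact one_pow _
    | mul x y hx hy h2 h3 =>
      have : Commute x y := by
        refine (mem_centralizer_singleton_iff.1 (((closure_le _).2 fun z hz => ?_ : closure E ≤ _) hx))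
        refine (mem_centralizer_singleton_iff.2 (mem_centralizer_singleton_iff.1
          (((closure_le _).2 fun w hw => ?_ : closure E ≤ centralizer {z}) hy)).symm)
        exact mem_centralizer_singleton_iff.2 (hEc w hw z hz).eq
      rw [this.mul_pow, h2, h3, one_mul]
    | inv x _ h2 => rw [inv_pow, h2, inv_one]
  obtain ⟨N, hN, hNo, hNf⟩ := S0215.result P f (orderOf_eq_prime hff hf1) hfP fun g hg => by
    have hf' := hf.conj g
    set E' := (fun x => g * x * g⁻¹) '' E
    have hE'D : E' ⊆ D := by rintro _ ⟨x, hx, rfl⟩; exact h.conj x hx.1 g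
    have hE'c : ∀ a ∈ E', ∀ b ∈ E', Commute a b := by
      rintro _ ⟨x, hx, rfl⟩ _ ⟨y, hy, rfl⟩; exact (hEc x hx y hy).conj g
    have hcard : E'.ncard = E.ncard := Set.ncard_image_of_injective _ (MulAut.conj g).injective
    have h1 : g * f * g⁻¹ ≠ 1 := fun e => hf1 (by simpa using e)
    have h2 : (g * f * g⁻¹) ^ 2 = 1 := by rw [conj_pow, hff]; simp
    generalize g * f * g⁻¹ = f' at *
    have hf'c : ∀ x ∈ E', Commute x f' := fun x hx => hf'.comm (hE'c x hx)
    have hstep : ∀ b ∈ E, Commute f' b := fun b hb => by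
      by_contra hcon
      have hc : f' * b * f'⁻¹ ∈ E := ⟨h.conj b hb.1 f', mul_mem (mul_mem hg hb.2) (inv_mem hg)⟩
      have hne : b ≠ f' * b * f'⁻¹ := fun e => hcon (mul_inv_eq_iff_eq_mul.1 e.symm)
      have hz : Commute (b * (f' * b * f'⁻¹)) f' := by
        have h3 : f' * (b * (f' * b * f'⁻¹)) * f'⁻¹ = b * (f' * b * f'⁻¹) := by
          rw [← conj_mul, (hEc _ hb _ hc).eq]
          congr 1
          calc _ = f' ^ 2 * b * (f' ^ 2)⁻¹ := by rw [pow_two]; group
            _ = b := by rw [h2]; simp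
        exact (mul_inv_eq_iff_eq_mul.1 h3).symm
      have hbc := hEc _ hb _ hc
      generalize f' * b * f'⁻¹ = c at *
      refine hcon (hf'.comm fun x hx => ?_).symm
      have hxD := hE'D hx
      have hd := h.conj x hxD (b * c)
      have hdf : Commute (b * c * x * (b * c)⁻¹) f' := by
        have := (hf'c x hx).conj (b * c)
        rwa [hz.eq, mul_inv_cancel_right] at this
      have h4 : Commute x (b * c * x * (b * c)⁻¹) := by
        by_contra h4
        refine h4 (hf'.comm_of hE'c hx hdf fun y hy hyx => ?_).symm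
        by_contra h5
        exact hyx (htr _ (hE'D hy) _ hxD (h.kl (hE'D hy) hd hxD (hE'c _ hy _ hx) (fun e => h5 e.symm) h4
          (h.cent_ne h1) (mem_centralizer_singleton_iff.2 (hf'c y hy).eq)
          (mem_centralizer_singleton_iff.2 hdf.eq) (mem_centralizer_singleton_iff.2 (hf'c x hx).eq)))
      have h5 := h.g1 hb.1 hc.1 hxD hbc (fun e => hne (htr _ hb.1 _ hc.1 e)) h4
      exact (h.f1 hb.1 hc.1 hxD hne (mul_inv_eq_iff_eq_mul.1 h5).symm).symm
    obtain ⟨T, hT, hET⟩ := H67.exists_syl_ge (p := 2) (K := closure E) (M := centralizer {f'})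
      ((closure_le _).2 fun x hx => mem_centralizer_singleton_iff.2 (hstep x hx).symm.eq)
      (isPGroup_closure h.toPT Set.inter_subset_left hEc)
    obtain ⟨k, hk, hk'⟩ := H67.exists_cj_le_syl hT (K := closure E')
      ((closure_le _).2 fun x hx => mem_centralizer_singleton_iff.2 (hf'c x hx).eq)
      (isPGroup_closure h.toPT hE'D hE'c)
    have h3 : E = D ∩ T := Set.eq_of_subset_of_ncard_le (fun x hx => ⟨hx.1, hET (subset_closure hx)⟩)
      (ncard_le h.toPT hS (H67.syl_isPGroup hT))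
    have h4 : (fun x => k * x * k⁻¹) '' E' = E := Set.eq_of_subset_of_ncard_le (by
      rintro _ ⟨x, hx, rfl⟩
      rw [h3]
      exact ⟨h.conj x (hE'D hx) k, hk' (H67.conj_mem_cj (subset_closure hx))⟩)
      ((Set.ncard_image_of_injective _ (MulAut.conj k).injective).trans hcard).ge
    have h5 := hf'.conj k
    rw [h4, mem_centralizer_singleton_iff.1 hk, mul_inv_cancel_right] at h5
    exact h5.unique hEc hf
  rw [h.rad N hN (S0205.result hNo)] at hNf
  exact hf1 (h.eq_one_of_central fun g => by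
    have := mem_bot.1 (hNf g)
    rwa [mul_inv_eq_one, mul_inv_eq_iff_eq_mul] at this)

end Cfsg.Agent.H19.PT
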