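import Cfsg.Agent.H18.PairBridge
import Cfsg.Agent.H17.First
import Cfsg.Agent.H3.Cores
import Cfsg.Agent.H20.SecondMain

/-!
# Kernels of blocks and Brauer pairs

`avg F K` is the idempotent `|K|⁻¹ ∑ K` of `F[G]`; `Ker K f` says that `K` acts trivially on `f`.
-/

set_option autoImplicit false
set_option linter.unusedSectionVars false

namespace Cfsg.Agent.H19

open MonoidAlgebra Cfsg.Agent.H18
open Cfsg.Agent.H17 (ZG incl eB fC lam LamClosed redZ omegaZ charLift)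

universe u

section Avg

variable {F : Type*} [Field F] {G : Type u} [Group G] [Finite G]

open Classical in
/-- The average of the elements of `K`. -/
noncomputable def avg (F : Type*) [Field F] (K : Subgroup G) : F[G] :=
  H17.ofFun fun x => if x ∈ K then (Nat.card K : F)⁻¹ else 0

theorem coeff_avg_of_mem {K : Subgroup G} {x : G} (hx : x ∈ K) :
    (avg F K).coeff x = (Nat.card K : F)⁻¹ := by
  rw [avg, H17.coeff_ofFun, if_pos hx]

theorem coeff_avg_of_not_mem {K : Subgroup G} {x : G} (hx : x ∉ K) : (avg F K).coeff x = 0 := by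
  rw [avg, H17.coeff_ofFun, if_neg hx]

theorem coeff_avg_congr {K : Subgroup G} {x y : G} (h : x ∈ K ↔ y ∈ K) :
    (avg F K).coeff x = (avg F K).coeff y := by
  by_cases hx : x ∈ K
  · rw [coeff_avg_of_mem hx, coeff_avg_of_mem (h.1 hx)]
  · rw [coeff_avg_of_not_mem hx, coeff_avg_of_not_mem fun hy => hx (h.2 hy)]

/-- `K` acts trivially on `f`. -/
def Ker (K : Subgroup G) (f : F[G]) : Prop := ∀ k ∈ K, single k (1 : F) * f = f

theorem Ker.mono {K L : Subgroup G} {f : F[G]} (h : Ker K f) (hL : L ≤ K) : Ker L f :=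
  fun k hk => h k (hL hk)

theorem Ker.mul {K : Subgroup G} {f : F[G]} (h : Ker K f) (g : F[G]) : Ker K (f * g) :=
  fun k hk => by rw [← mul_assoc, h k hk]

theorem Ker.cj {K : Subgroup G} {f : F[G]} (h : Ker K f) (x : G) : Ker (cs x K) (cj x f) := by
  intro k hk
  have := congrArg (H18.cj x) (h _ (mem_cs.1 hk))
  rw [map_mul, cj_single] at this
  simpa [mul_assoc] using this

theorem ker_avg (K : Subgroup G) : Ker K (avg F K) := by
  intro k hk
  refine H17.ga_ext fun g => ?_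
  rw [MonoidAlgebra.single_mul_apply, one_mul]
  exact coeff_avg_congr ((K.mul_mem_cancel_left (K.inv_mem hk)))

theorem avg_eq_sum [Fintype G] [DecidableEq G] (K : Subgroup G) [DecidablePred (· ∈ K)] :
    avg F K = (Nat.card K : F)⁻¹ • ∑ k ∈ Finset.univ.filter (· ∈ K), single k (1 : F) := by
  refine H17.ga_ext fun g => ?_
  rw [H17.coeff_smul_apply', H17.coeff_sum_apply]
  have : ∀ k : G, (single k (1 : F) : F[G]).coeff g = if k = g then 1 else 0 := fun k =>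
    Finsupp.single_apply
  simp only [this, Finset.sum_ite_eq', Finset.mem_filter, Finset.mem_univ, true_and]
  by_cases hg : g ∈ K
  · rw [coeff_avg_of_mem hg, if_pos hg, mul_one]
  · rw [coeff_avg_of_not_mem hg, if_neg hg, mul_zero]

theorem Ker.avg_mul {K : Subgroup G} {f : F[G]} (h : Ker K f) (hK : (Nat.card K : F) ≠ 0) :
    avg F K * f = f := by
  classical
  haveI := Fintype.ofFinite G
  rw [avg_eq_sum, smul_mul_assoc, Finset.sum_mul,
    Finset.sum_congr rfl fun k hk => h k (Finset.mem_filter.1 hk).2, Finset.sum_const,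
    ← Nat.cast_smul_eq_nsmul F, smul_smul]
  have : (Finset.univ.filter (· ∈ K)).card = Nat.card K := by
    rw [Nat.card_eq_fintype_card, Fintype.card_subtype]
  rw [this, inv_mul_cancel₀ hK, one_smul]

theorem ker_of_avg_mul {K : Subgroup G} {f : F[G]} (h : avg F K * f = f) : Ker K f := by
  rw [← h]; exact (ker_avg K).mul f

theorem avg_idem {K : Subgroup G} (hK : (Nat.card K : F) ≠ 0) : avg F K * avg F K = avg F K :=
  (ker_avg K).avg_mul hK

theorem cj_avg {K : Subgroup G} {x : G} (hx : x ∈ Nz K) : cj x (avg F K) = avg F K := by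
  refine H17.ga_ext fun g => ?_
  rw [coeff_cj]
  refine coeff_avg_congr ?_
  rw [← mem_cs, mem_Nz_iff_cs.1 hx]

theorem avg_mem_fixAlg {K H L : Subgroup G} (hH : K ≤ H) (hL : L ≤ Nz K) :
    avg F K ∈ fixAlg F H L :=
  mem_fixAlg.2 ⟨fun _ hx => coeff_avg_of_not_mem fun h => hx (hH h), fun _ hx => cj_avg (hL hx)⟩

theorem aug_avg {K : Subgroup G} (hK : (Nat.card K : F) ≠ 0) : aug (avg F K) = 1 := by
  classical
  haveI := Fintype.ofFinite G
  rw [avg_eq_sum, map_smul, map_sum]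
  simp only [aug_single, Finset.sum_const]
  have : (Finset.univ.filter (· ∈ K)).card = Nat.card K := by
    rw [Nat.card_eq_fintype_card, Fintype.card_subtype]
  rw [this, nsmul_eq_mul, mul_one, smul_eq_mul, inv_mul_cancel₀ hK]

theorem cast_card_ne_zero_of_le {K L : Subgroup G} (h : L ≤ K) (hK : (Nat.card K : F) ≠ 0) :
    (Nat.card L : F) ≠ 0 := by
  obtain ⟨c, hc⟩ := Subgroup.card_dvd_of_le h
  rw [hc, Nat.cast_mul] at hK
  exact left_ne_zero_of_mul hK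

theorem br_avg {p : ℕ} [Fact p.Prime] [CharP F p] {K P : Subgroup G} (hP : IsPGroup p P)
    (hN : P ≤ Nz K) (hK : (Nat.card K : F) ≠ 0) : br P (avg F K) = avg F (K ⊓ Cz P) := by
  have hL : (Nat.card (K ⊓ Cz P : Subgroup G) : F) ≠ 0 := cast_card_ne_zero_of_le inf_le_left hK
  have h1 : br P (avg F K) =
      ((Nat.card (K ⊓ Cz P : Subgroup G) : F) * (Nat.card K : F)⁻¹) • avg F (K ⊓ Cz P) := by
    refine H17.ga_ext fun g => ?_
    rw [H17.coeff_smul_apply']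
    by_cases hg : g ∈ Cz P
    · rw [coeff_br_of_mem _ hg]
      by_cases hk : g ∈ K
      · rw [coeff_avg_of_mem hk, coeff_avg_of_mem (K := K ⊓ Cz P) ⟨hk, hg⟩]
        field_simp
      · rw [coeff_avg_of_not_mem hk, coeff_avg_of_not_mem (K := K ⊓ Cz P) fun h => hk h.1, mul_zero]
    · rw [coeff_br_of_not_mem _ hg, coeff_avg_of_not_mem (K := K ⊓ Cz P) fun h => hg h.2, mul_zero]
  have h2 := aug_br hP (a := avg F K) fun g hg => cj_avg (hN hg)
  rw [h1, map_smul, aug_avg hL, aug_avg hK, smul_eq_mul, mul_one] at h2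
  rw [h1, h2, one_smul]

theorem incl_avg {H : Subgroup G} (K : Subgroup H) :
    incl H (avg F K) = avg F (K.map H.subtype) := by
  refine H17.ga_ext fun g => ?_
  by_cases hg : g ∈ H
  · rw [show g = ((⟨g, hg⟩ : H) : G) from rfl, H17.coeff_incl_coe]
    by_cases hk : (⟨g, hg⟩ : H) ∈ K
    · rw [coeff_avg_of_mem hk, coeff_avg_of_mem (K := K.map H.subtype)
        (x := ((⟨g, hg⟩ : H) : G)) ⟨_, hk, rfl⟩,
        H3.card_map_subtype]
    · rw [coeff_avg_of_not_mem hk, coeff_avg_of_not_mem]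
      rintro ⟨k, hk', h⟩
      exact hk (by rwa [← Subtype.ext h])
  · rw [H17.coeff_incl_of_notMem _ _ hg, coeff_avg_of_not_mem]
    rintro ⟨k, -, rfl⟩
    exact hg k.2

theorem ker_incl_iff {H : Subgroup G} {K : Subgroup H} {f : F[H]} :
    Ker (K.map H.subtype) (incl H f) ↔ Ker K f := by
  constructor
  · intro h k hk
    apply H17.incl_injective H
    rw [map_mul, H17.incl_single]
    exact h _ (Subgroup.mem_map_of_mem _ hk)
  · rintro h _ ⟨k, hk, rfl⟩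
    have := congrArg (incl H) (h k hk)
    rwa [map_mul, H17.incl_single] at this

/-- A primitive idempotent not annihilated by the average has `K` in its kernel. -/
theorem ker_of_mul_ne_zero {K H L : Subgroup G} {b : F[G]} (hb : IsPrim (fixAlg F H L) b)
    (hH : K ≤ H) (hL : L ≤ Nz K) (hK : (Nat.card K : F) ≠ 0) (h : avg F K * b ≠ 0) : Ker K b :=
  ker_of_avg_mul (hb.mul_eq_of_ne_zero (avg_mem_fixAlg hH hL) (avg_idem hK) h)

end Avg

section Core

variable {G : Type u} [Group G] [Finite G] {σ : Set ℕ}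

theorem conj_mem_of_Nz {K : Subgroup G} {x k : G} (hx : x ∈ Nz K) (hk : k ∈ K) :
    x * k * x⁻¹ ∈ K := by
  rw [← mem_Nz_iff_cs.1 hx]; exact conj_mem_cs.2 hk

theorem piCoreOf_le (H : Subgroup G) : piCoreOf σ H ≤ H := Subgroup.map_subtype_le _

theorem piCoreOf_pi (H : Subgroup G) : ∀ q : ℕ, q.Prime → q ∣ Nat.card (piCoreOf σ H) → q ∈ σ :=
  H3.map_piCore_pi H

theorem Nz_le_Nz_piCoreOf (H : Subgroup G) : Nz H ≤ Nz (piCoreOf σ H) :=
  H3.normalizer_le_normalizer_map_piCore H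

theorem le_Nz_piCoreOf (H : Subgroup G) : H ≤ Nz (piCoreOf σ H) :=
  Subgroup.le_normalizer.trans (Nz_le_Nz_piCoreOf H)

theorem le_piCoreOf {K H : Subgroup G} (hK : ∀ q : ℕ, q.Prime → q ∣ Nat.card K → q ∈ σ)
    (hKH : K ≤ H) (hn : H ≤ Nz K) : K ≤ piCoreOf σ H :=
  H3.le_map_piCore hK hKH hn

theorem inf_le_piCoreOf {K H : Subgroup G} (hK : ∀ q : ℕ, q.Prime → q ∣ Nat.card K → q ∈ σ)
    (hn : H ≤ Nz K) : K ⊓ H ≤ piCoreOf σ H := by
  refine le_piCoreOf (H3.pi_card_of_dvd (Subgroup.card_dvd_of_le inf_le_left) hK) inf_le_right ?_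
  intro x hx
  rw [mem_Nz_iff_cs, cs_inf, mem_Nz_iff_cs.1 (hn hx), cs_eq_of_mem hx]

theorem cs_piCoreOf_le (x : G) (H : Subgroup G) : cs x (piCoreOf σ H) ≤ piCoreOf σ (cs x H) := by
  refine le_piCoreOf (by rw [card_cs]; exact piCoreOf_pi H) (cs_mono x (piCoreOf_le H)) ?_
  rw [Nz_cs]
  exact cs_mono x (le_Nz_piCoreOf H)

theorem piCoreOf_cs (x : G) (H : Subgroup G) : piCoreOf σ (cs x H) = cs x (piCoreOf σ H) := by
  refine le_antisymm ?_ (cs_piCoreOf_le x H)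
  have := cs_piCoreOf_le (σ := σ) x⁻¹ (cs x H)
  rw [cs_inv_cs] at this
  have h2 := cs_mono x this
  rwa [cs_cs_inv] at h2

theorem cast_card_piCoreOf_ne_zero {F : Type*} [Field F] {p : ℕ} [hp : Fact p.Prime] [CharP F p]
    (hσ : p ∉ σ) (H : Subgroup G) : (Nat.card (piCoreOf σ H) : F) ≠ 0 := by
  rw [Ne, CharP.cast_eq_zero_iff F p]
  exact fun h => hσ (piCoreOf_pi H p hp.out h)

theorem pi_orderOf_of_mem {K : Subgroup G} (hK : ∀ q : ℕ, q.Prime → q ∣ Nat.card K → q ∈ σ)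
    {x : G} (hx : x ∈ K) : ∀ q : ℕ, q.Prime → q ∣ orderOf x → q ∈ σ :=
  H3.pi_card_of_dvd (K.orderOf_dvd_natCard hx) hK

/-- Every `σ`-element of `H` lies in `O_σ(H)`. -/
def HallCore (σ : Set ℕ) (H : Subgroup G) : Prop :=
  ∀ x ∈ H, (∀ q : ℕ, q.Prime → q ∣ orderOf x → q ∈ σ) → x ∈ piCoreOf σ H

theorem HallCore.mono {H L : Subgroup G} (h : HallCore σ H) (hL : L ≤ H) : HallCore σ L :=
  fun x hx hq => inf_le_piCoreOf (piCoreOf_pi H) (hL.trans (le_Nz_piCoreOf H)) ⟨h x (hL hx) hq, hx⟩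

theorem HallCore.le {H L : Subgroup G} (h : HallCore σ H) (hL : L ≤ H) :
    piCoreOf σ L ≤ piCoreOf σ H :=
  fun x hx => h x (hL (piCoreOf_le L hx)) (pi_orderOf_of_mem (piCoreOf_pi L) hx)

/-- A `σ`-subgroup normal in `N(D)` centralizes the `p`-group `D` (`p ∉ σ`). -/
theorem piCoreOf_Nz_le_Cz {p : ℕ} [hp : Fact p.Prime] (hσ : p ∉ σ) {D : Subgroup G}
    (hD : IsPGroup p D) : piCoreOf σ (Nz D) ≤ Cz D := by
  intro k hk
  rw [mem_Cz]
  intro d hd
  have hkN : k ∈ Nz D := piCoreOf_le _ hk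
  have hdN : d ∈ Nz (piCoreOf σ (Nz D)) := le_Nz_piCoreOf _ (Subgroup.le_normalizer hd)
  have h1 : d * k * d⁻¹ * k⁻¹ ∈ piCoreOf σ (Nz D) :=
    Subgroup.mul_mem _ (conj_mem_of_Nz hdN hk) (Subgroup.inv_mem _ hk)
  have h2 : d * k * d⁻¹ * k⁻¹ ∈ D := by
    have := conj_mem_of_Nz hkN (D.inv_mem hd)
    have h3 := D.mul_mem hd this
    simpa [mul_assoc] using h3
  obtain ⟨n, hn⟩ := hD ⟨_, h2⟩
  have h4 : orderOf (d * k * d⁻¹ * k⁻¹) ∣ p ^ n :=
    orderOf_dvd_of_pow_eq_one (congrArg Subtype.val hn)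
  have h5 : orderOf (d * k * d⁻¹ * k⁻¹) = 1 := by
    by_contra hne
    obtain ⟨q, hq, hqd⟩ := Nat.exists_prime_and_dvd hne
    have := (Nat.prime_dvd_prime_iff_eq hq hp.out).1 (hq.dvd_of_dvd_pow (hqd.trans h4))
    exact hσ (this ▸ pi_orderOf_of_mem (piCoreOf_pi _) h1 q hq hqd)
  rw [orderOf_eq_one_iff, mul_inv_eq_one, mul_inv_eq_iff_eq_mul] at h5
  exact h5

theorem piCoreOf_Nz_eq {p : ℕ} [hp : Fact p.Prime] (hσ : p ∉ σ) {D : Subgroup G}
    (hD : IsPGroup p D) : piCoreOf σ (Nz D) = piCoreOf σ (Cz D) := by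
  refine le_antisymm (le_piCoreOf (piCoreOf_pi _) (piCoreOf_Nz_le_Cz hσ hD)
    ((Cz_le_Nz D).trans (le_Nz_piCoreOf _))) ?_
  exact le_piCoreOf (piCoreOf_pi _) ((piCoreOf_le _).trans (Cz_le_Nz D))
    ((Nz_le_Nz_Cz D).trans (Nz_le_Nz_piCoreOf _))

end Core

section Pairs

variable {p : ℕ} [Fact p.Prime] {F : Type*} [Field F] [CharP F p] {G : Type u} [Group G] [Finite G]
  {σ : Set ℕ} {Q R P : Subgroup G} {b e f g : F[G]}

theorem nsub_avg_iff (hσ : p ∉ σ) (h : NSub p ⊤ Q f R g) :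
    Ker (piCoreOf σ (Cz Q) ⊓ Cz R) g ↔ Ker (piCoreOf σ (Cz Q)) f := by
  have hK : (Nat.card (piCoreOf σ (Cz Q)) : F) ≠ 0 := cast_card_piCoreOf_ne_zero hσ _
  have hN : Nz Q ≤ Nz (piCoreOf σ (Cz Q)) := (Nz_le_Nz_Cz Q).trans (Nz_le_Nz_piCoreOf _)
  have := h.occ_iff (a := avg F (piCoreOf σ (Cz Q))) (fun x hx => absurd trivial hx) (avg_idem hK)
    (fun x hx => cj_avg (hN (h.norm hx))) (fun x hx => cj_avg (hN (Cz_le_Nz Q hx.2)))
  rw [br_avg h.right.isP (h.norm.trans hN) hK,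
    br_avg h.left.isP (Subgroup.le_normalizer.trans hN) hK,
    inf_eq_left.2 (piCoreOf_le (Cz Q))] at this
  constructor
  · intro hk
    exact ker_of_avg_mul (this.1 (hk.avg_mul (cast_card_ne_zero_of_le inf_le_left hK)))
  · intro hk
    exact ker_of_avg_mul (this.2 (hk.avg_mul hK))

theorem ker_of_nsub (hσ : p ∉ σ) (h : NSub p ⊤ Q f R g) (hk : Ker (piCoreOf σ (Cz R)) g) :
    Ker (piCoreOf σ (Cz Q)) f :=
  (nsub_avg_iff hσ h).1 (hk.mono (inf_le_piCoreOf (piCoreOf_pi _)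
    ((Cz_anti h.le).trans (le_Nz_piCoreOf _))))

theorem ker_of_sub (hσ : p ∉ σ) (h : Sub p ⊤ Q f P e) (hk : Ker (piCoreOf σ (Cz P)) e) :
    Ker (piCoreOf σ (Cz Q)) f :=
  h.induction (motive := fun Q f => Ker (piCoreOf σ (Cz Q)) f) hk
    fun _ _ _ _ hn _ ih => ker_of_nsub hσ hn ih

theorem ker_up_of_sub (hσ : p ∉ σ) (h : Sub p ⊤ Q f P e) (hH : HallCore σ (Cz Q))
    (hk : Ker (piCoreOf σ (Cz Q)) f) : Ker (piCoreOf σ (Cz P)) e := by
  refine h.induction (motive := fun Q f => HallCore σ (Cz Q) → Ker (piCoreOf σ (Cz Q)) f →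
    Ker (piCoreOf σ (Cz P)) e) (fun _ h => h) ?_ hH hk
  intro Q f R g hn _ ih hH hk
  refine ih (hH.mono (Cz_anti hn.le)) (((nsub_avg_iff hσ hn).2 hk).mono ?_)
  exact le_inf (hH.le (Cz_anti hn.le)) (piCoreOf_le _)

theorem ker_cj_iff (x : G) :
    Ker (piCoreOf σ (Cz (cs x Q))) (cj x f) ↔ Ker (piCoreOf σ (Cz Q)) f := by
  rw [Cz_cs, piCoreOf_cs]
  refine ⟨fun h => ?_, fun h => h.cj x⟩
  have := h.cj x⁻¹
  rwa [cs_inv_cs, cj_inv_cj] at this

/-- The kernel condition descends from a maximal pair to all pairs of the block. -/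
theorem ker_of_maxPair (hσ : p ∉ σ) (hb : IsPrim (fixAlg F ⊤ ⊤) b) (h : IsMaxPair p ⊤ b P e)
    (hk : Ker (piCoreOf σ (Cz P)) e) (hQ : IsPairOf p ⊤ b Q f) : Ker (piCoreOf σ (Cz Q)) f := by
  obtain ⟨x, -, hx⟩ := h.exists_sub hb hQ
  exact (ker_cj_iff x).1 (ker_of_sub hσ hx hk)

/-- The kernel condition ascends to the maximal pairs. -/
theorem ker_maxPair_of_hall (hσ : p ∉ σ) (hb : IsPrim (fixAlg F ⊤ ⊤) b) (h : IsMaxPair p ⊤ b P e)
    (hQ : IsPairOf p ⊤ b Q f) (hH : HallCore σ (Cz Q)) (hk : Ker (piCoreOf σ (Cz Q)) f) :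
    Ker (piCoreOf σ (Cz P)) e := by
  obtain ⟨P', e', h', hs⟩ := hQ.exists_isMaxPair
  obtain ⟨x, -, rfl, rfl⟩ := h.exists_cj hb h'
  exact (ker_cj_iff x).2 (ker_up_of_sub hσ hs hH hk)

end Pairs

section Bridge

variable {G : Type u} [Group G] [Finite G] {M : Ideal AlgInt} {p : ℕ} [Fact p.Prime]

theorem ker_gid_iff (hM : IsPModular p M) {B : Set (IrrCharacter G)} (hB : IsPBlock M B)
    {K : Subgroup G} [hn : K.Normal] (hK : ¬ p ∣ Nat.card K) :
    Ker K (gid M B) ↔ ∀ x ∈ K, x ∈ blockKer B := by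
  haveI := charP_kk hM
  haveI := Fintype.ofFinite G
  have hKF : (Nat.card K : kk M) ≠ 0 := by rwa [Ne, CharP.cast_eq_zero_iff _ p]
  constructor
  · intro h x hx χ hχ
    have hKC : (Nat.card K : ℂ) ≠ 0 := Nat.cast_ne_zero.2 Nat.card_pos.ne'
    have hN : (⊤ : Subgroup G) ≤ Nz K := by
      rw [top_le_iff]; exact Subgroup.normalizer_eq_top K
    let z : ZG G ℂ := ⟨avg ℂ K, mem_fixAlg_top_iff.1 (avg_mem_fixAlg le_top hN)⟩
    have hv : val M (Nat.card K : ℂ) = 1 := (val_natCast_eq_one_iff hM _).2 hK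
    have hzV : ∀ g, z.1.coeff g ∈ Vr M := by
      intro g
      by_cases hg : g ∈ K
      · rw [show z.1 = avg ℂ K from rfl, coeff_avg_of_mem hg]; exact inv_mem_Vr_of_val_eq_one hv
      · rw [show z.1 = avg ℂ K from rfl, coeff_avg_of_not_mem hg]; exact zero_mem _
    have hred : (redZ M z).1 = avg (kk M) K := by
      refine H17.ga_ext fun g => ?_
      rw [H17.coeff_redZ]
      by_cases hg : g ∈ K
      · rw [show z.1 = avg ℂ K from rfl, coeff_avg_of_mem hg, coeff_avg_of_mem hg,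
          red_inv hv, red_natCast]
      · rw [show z.1 = avg ℂ K from rfl, coeff_avg_of_not_mem hg, coeff_avg_of_not_mem hg,
          red_zero]
    have h1 : lam M χ (redZ M z) = 1 := by
      rw [lam_eq_one_iff hM.2.1 hB hχ (by rw [hred]; exact avg_idem hKF), hred]
      exact h.avg_mul hKF
    rw [H17.lam_redZ χ hzV] at h1
    have hzz : z * z = z := Subtype.ext (avg_idem hKC)
    have h2 : omegaZ χ z * omegaZ χ z = omegaZ χ z := by rw [← map_mul, hzz]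
    have h3 : omegaZ χ z = 1 := by
      by_cases h0 : omegaZ χ z = 0
      · rw [h0, red_zero] at h1; exact absurd h1 zero_ne_one
      · exact mul_left_cancel₀ h0 (h2.trans (mul_one _).symm)
    have h4 := H17.charLift_ZG_mul χ z (single x 1)
    rw [H17.ZG.comm, show z.1 = avg ℂ K from rfl, ker_avg K x hx, h3, one_mul,
      H17.charLift_single, one_mul] at h4
    rw [← h4, show avg ℂ K = z.1 from rfl, H17.charLift_ZG, h3, one_mul]
  · intro h x hx
    refine H17.ga_ext fun g => ?_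
    rw [MonoidAlgebra.single_mul_apply, one_mul]
    change (gid M B).coeff (x⁻¹ * g) = (gid M B).coeff g
    rw [coeff_gid, coeff_gid, blockCoeff, blockCoeff]
    congr 2
    refine finsum_mem_congr rfl fun χ hχ => ?_
    have hk : x⁻¹ ∈ H11.charKer χ.1 :=
      (H11.mem_charKer_irr_iff χ.2).2 (h _ (K.inv_mem hx) χ hχ)
    rw [H11.apply_mul_of_mem_charKer hk]

theorem ker_bid_iff (hM : IsPModular p M) {H : Subgroup G} {b : Set (IrrCharacter H)}
    (hb : IsPBlock M b) {K : Subgroup H} [hn : K.Normal] (hK : ¬ p ∣ Nat.card K) :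
    Ker (K.map H.subtype) (bid M H b) ↔ ∀ x ∈ K, x ∈ blockKer b :=
  ker_incl_iff.trans (ker_gid_iff hM hb hK)

theorem not_dvd_card_piCore {σ : Set ℕ} (hσ : p ∉ σ) (G : Type u) [Group G] [Finite G] :
    ¬ p ∣ Nat.card (piCore σ G) := fun h => hσ (H3.piCore_pi σ G p Fact.out h)

theorem ker_bid_piCore_iff (hM : IsPModular p M) {σ : Set ℕ} (hσ : p ∉ σ) {H : Subgroup G}
    {b : Set (IrrCharacter H)} (hb : IsPBlock M b) :
    Ker (piCoreOf σ H) (bid M H b) ↔ ∀ x ∈ piCore σ H, x ∈ blockKer b :=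
  ker_bid_iff hM hb (not_dvd_card_piCore hσ H)

theorem br_gid_eq_bid (hM : IsPModular p M) {B : Set (IrrCharacter G)} {D : Subgroup G}
    (hD : IsPGroup p D) {B₁ : Set (IrrCharacter (Nz D))} (hB₁ : IsInducedBlock M (Nz D) B₁ B)
    (hB₁D : IsDefectGroup p M B₁ (D.subgroupOf (Nz D))) : br D (gid M B) = bid M (Nz D) B₁ := by
  haveI := charP_kk hM
  have h1 : br D (gid M B) = br D (bid M (Nz D) B₁) :=
    H17.IsInducedBlock.br_eq_of_Nz_le hM le_rfl hB₁ hB₁D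
  rw [h1]
  exact br_idem_eq_self le_rfl hD Subgroup.le_normalizer le_rfl (bid_mem _ _)
    (bid_idem (H17.lamClosed_of_isPBlock hM.2.1 hB₁.1))

/-- The kernel condition for the Brauer correspondent in terms of a maximal pair. -/
theorem ker_corr_iff (hM : IsPModular p M) {σ : Set ℕ} (hσ : p ∉ σ) {B : Set (IrrCharacter G)}
    {D : Subgroup G} {B₁ : Set (IrrCharacter (Nz D))} (hB₁ : IsInducedBlock M (Nz D) B₁ B)
    (hB₁D : IsDefectGroup p M B₁ (D.subgroupOf (Nz D))) {e : (kk M)[G]}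
    (he : IsPairOf p ⊤ (gid M B) D e) :
    (∀ x ∈ piCore σ (Nz D), x ∈ blockKer B₁) ↔ Ker (piCoreOf σ (Cz D)) e := by
  haveI := charP_kk hM
  have hD := he.pair.isP
  have h1 := he.occ
  rw [br_gid_eq_bid hM hD hB₁ hB₁D] at h1
  rw [← ker_bid_piCore_iff hM hσ hB₁.1, ← piCoreOf_Nz_eq hσ hD]
  constructor
  · intro h
    rw [← h1]
    exact h.mul e
  · intro h
    have hK : (Nat.card (piCoreOf σ (Nz D)) : kk M) ≠ 0 := cast_card_piCoreOf_ne_zero hσ _
    refine ker_of_mul_ne_zero (isPrim_bid hM.2.1 hB₁.1) (piCoreOf_le _) (le_Nz_piCoreOf _) hK ?_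
    intro h0
    have h2 := h.avg_mul hK
    rw [← h1, ← mul_assoc, h0, zero_mul, h1] at h2
    exact he.pair.ne_zero h2.symm

/-- Descent of the kernel condition to local blocks. -/
theorem ker_descend (hM : IsPModular p M) {σ : Set ℕ} (hσ : p ∉ σ) {B : Set (IrrCharacter G)}
    {D : Subgroup G} (hBD : IsDefectGroup p M B D) {B₁ : Set (IrrCharacter (Nz D))}
    (hB₁ : IsInducedBlock M (Nz D) B₁ B) (hB₁D : IsDefectGroup p M B₁ (D.subgroupOf (Nz D)))
    (hker : ∀ x ∈ piCore σ (Nz D), x ∈ blockKer B₁) {G₀ : Subgroup G}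
    {B₀ : Set (IrrCharacter G₀)} (hB₀ : IsInducedBlock M G₀ B₀ B) {D₀ : Subgroup G₀}
    (hD₀ : IsDefectGroup p M B₀ D₀) (hC : Cz (D₀.map G₀.subtype) ≤ G₀) :
    ∀ x ∈ piCore σ G₀, x ∈ blockKer B₀ := by
  haveI := charP_kk hM
  have hB : IsPBlock M B := hB₁.2.1
  have hb := isPrim_gid hM.2.1 hB
  obtain ⟨e, he⟩ := exists_isMaxPair_of_isDefect hb (isDefect_of_isDefectGroup hM hB hBD)
  have hk := (ker_corr_iff hM hσ hB₁ hB₁D he.pairOf).1 hker
  have hd := (isDefectGroup_iff_bid hM hB₀.1).1 hD₀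
  set P := D₀.map G₀.subtype with hP
  have hbb := bid_idem (H17.lamClosed_of_isPBlock hM.2.1 hB₀.1)
  obtain ⟨g, hg⟩ := exists_pairOf (bid_mem G₀ B₀) hbb hd.le hd.isP hd.ne
  have h1 : br P (gid M B) * br P (bid M G₀ B₀) = br P (bid M G₀ B₀) :=
    H17.IsInducedBlock.br_mul_br hM hd.isP hd.le hC hB₀
  have hg' : IsPairOf p ⊤ (gid M B) P g :=
    ⟨hg.pair.up le_top (inf_le_right.trans hC) le_rfl, by rw [← hg.occ, ← mul_assoc, h1]⟩
  have hkg := ker_of_maxPair hσ hb he hk hg'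
  rw [← ker_bid_piCore_iff hM hσ hB₀.1]
  have hK : (Nat.card (piCoreOf σ G₀) : kk M) ≠ 0 := cast_card_piCoreOf_ne_zero hσ _
  refine ker_of_mul_ne_zero (isPrim_bid hM.2.1 hB₀.1) (piCoreOf_le _) (le_Nz_piCoreOf _) hK ?_
  intro h0
  have hN : P ≤ Nz (piCoreOf σ G₀) := hd.le.trans (le_Nz_piCoreOf _)
  have h2 := br_mul hd.isP (a := avg (kk M) (piCoreOf σ G₀)) (b := bid M G₀ B₀)
    (fun x hx => cj_avg (hN hx)) (fun x hx => (bid_mem G₀ B₀).2 x (hd.le hx))
  rw [h0, map_zero, br_avg hd.isP hN hK] at h2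
  have h3 := (hkg.mono (inf_le_piCoreOf (piCoreOf_pi G₀) (hC.trans (le_Nz_piCoreOf _)))).avg_mul
    (cast_card_ne_zero_of_le inf_le_left hK)
  rw [← hg.occ, ← mul_assoc, ← h2, zero_mul, hg.occ] at h3
  exact hg.pair.ne_zero h3.symm

/-- Ascent of the kernel condition to the Brauer correspondent. -/
theorem ker_ascend (hM : IsPModular p M) {σ : Set ℕ} (hσ : p ∉ σ) {B : Set (IrrCharacter G)}
    {D : Subgroup G} (hBD : IsDefectGroup p M B D) {B₁ : Set (IrrCharacter (Nz D))}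
    (hB₁ : IsInducedBlock M (Nz D) B₁ B) (hB₁D : IsDefectGroup p M B₁ (D.subgroupOf (Nz D)))
    {Q : Subgroup G} {f : (kk M)[G]} (hQ : IsPairOf p ⊤ (gid M B) Q f) (hH : HallCore σ (Cz Q))
    (hk : Ker (piCoreOf σ (Cz Q)) f) : ∀ x ∈ piCore σ (Nz D), x ∈ blockKer B₁ := by
  haveI := charP_kk hM
  have hB : IsPBlock M B := hB₁.2.1
  have hb := isPrim_gid hM.2.1 hB
  obtain ⟨e, he⟩ := exists_isMaxPair_of_isDefect hb (isDefect_of_isDefectGroup hM hB hBD)
  exact (ker_corr_iff hM hσ hB₁ hB₁D he.pairOf).2 (ker_maxPair_of_hall hσ hb he hQ hH hk)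

/-- A block of `Q C_G(Q)` inducing `B` gives a Brauer pair of `B`. -/
theorem pairOf_of_sup_Cz (hM : IsPModular p M) {B : Set (IrrCharacter G)} {Q : Subgroup G}
    (hQ : IsPGroup p Q) {b : Set (IrrCharacter (Q ⊔ Cz Q : Subgroup G))}
    (hb : IsInducedBlock M (Q ⊔ Cz Q) b B) : IsPairOf p ⊤ (gid M B) Q (bid M (Q ⊔ Cz Q) b) := by
  haveI := charP_kk hM
  have hN : Q ⊔ Cz Q ≤ Nz Q := sup_le Subgroup.le_normalizer (Cz_le_Nz Q)
  refine ⟨isPair_top_iff.2 ⟨hQ, ?_⟩,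
    (isInducedBlock_iff_br hM hQ le_sup_left le_sup_right hN hb.1 hb.2.1).1 hb⟩
  have h1 := (isPrim_iff_of_normal hQ le_sup_left hN).2 (isPrim_bid hM.2.1 hb.1)
  rw [inf_eq_right.2 le_sup_right] at h1
  have h2 : fixAlg (kk M) (Cz Q) (Q ⊔ Cz Q) = fixAlg (kk M) (Cz Q) (Cz Q) := by
    refine le_antisymm (fixAlg_mono le_rfl le_sup_right) fun a ha => ?_
    rw [mem_fixAlg'] at ha ⊢
    exact ⟨ha.1, sup_le (fun x hx => cj_of_mem_Cz ha.1 hx) ha.2⟩
  rwa [h2] at h1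

end Bridge

end Cfsg.Agent.H19
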