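import Cfsg.Agent.H35.RfQ

/-! Project RF: the piece VBG. -/

set_option autoImplicit false

namespace Cfsg.Agent.H19.RfVbG

open Cfsg Subgroup Cfsg.Agent.H42 Cfsg.Agent.H18.Rf Cfsg.Agent.H35.RF
open Cfsg.Agent.H48 (IsWord)
open scoped commutatorElement Pointwise symmDiff

universe u

theorem fix16 {g : M24} (h : ∀ p, p ∉ o0 → g • p = p) : g = 1 := by
  have h1 : Nat.card (fixS 8241104) ≤ 1 := card_le_of_fixBd [] _ (by simp)
    [(0, 6053905, 1413139), (1, 4845570, 9347075), (2, 13938692, 1302533), (3, 7221256, 11100169),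
      (5, 7417889, 7417889), (14, 13062145, 4845570), (17, 13062145, 1302533),
      (23, 13062145, 13062145)] 8241104 _ le_rfl (by norm_num) (by decide +kernel)
  have h2 : ∀ p ∈ toSet 8241104, p ∉ o0 := by
    simp only [o0, mem_toSet]
    decide +kernel
  exact mem_bot.1 (card_le_one_iff_eq_bot _ |>.1 h1 ▸ mem_fixS.2 fun p hp => h p (h2 p hp))

theorem hyp8 {g : M24} (h : ∀ c, IsWord c → Disjoint c o0 → g • c = c) : g = 1 := by
  have h1 : ∀ c ∈ [6889680, 4038912, 832080, 6100032, 1351424, 4202192, 7409024, 2141072],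
      isCode c = true ∧ Nat.land c oct0 = 0 := by decide +kernel
  have h2 : ∀ p, p ∉ o0 → ∀ q, (∀ c ∈ [6889680, 4038912, 832080, 6100032, 1351424, 4202192,
      7409024, 2141072], p ∈ toSet c → q ∈ toSet c) → q = p := by
    simp only [o0, mem_toSet]
    decide +kernel
  refine fix16 fun p hp => h2 p hp _ fun c hc hp' => ?_
  rw [← h _ (toSet_mem_codeSets (h1 c hc).1)
    ((toSet_disjoint_iff _ (isCode_lt (h1 c hc).1)).2 (h1 c hc).2)]
  exact (msmul_mem_msmul g).2 hp'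

theorem mem_o0 {g : M24} (hg : g ∈ GO) {p : GolayPt} : g • p ∈ o0 ↔ p ∈ o0 := by
  conv_lhs => rw [o0, ← show g • toSet oct0 = toSet oct0 from hg]
  exact msmul_mem_msmul g

theorem not_mem {g : M24} (hg : g ∈ GO) {c : Finset GolayPt} (hc : Disjoint c o0) {p : GolayPt}
    (hp : p ∈ o0) : p ∉ (g • c) ∆ c := fun e => by
  rcases Finset.mem_symmDiff.1 e with ⟨e, -⟩ | ⟨e, -⟩
  · exact Finset.disjoint_left.1 hc (Finset.inv_smul_mem_iff.2 e) ((mem_o0 (inv_mem hg)).2 hp)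
  · exact Finset.disjoint_left.1 hc e hp

theorem vbG (kit : KitGStmt.{u}) (va : VaGStmt.{u}) : VbGStmt.{u} := by
  intro G _ _ V ρ ψ st gol
  obtain ⟨k1, k2, k3, -⟩ := kit G V ρ ψ st gol
  obtain ⟨a, ga⟩ := va G V ρ ψ st gol
  have wd : ∀ (g : M24) {c}, IsWord c → IsWord (g • c) := fun g c hc =>
    (msmul_mem_codeSets_iff g).2 hc
  have cm : ∀ (n : NN V) c, IsWord c → ⁅(n : G), ψ c⁆ = ψ ((ρ n • c) ∆ c) := fun n c hc => by
    rw [commutatorElement_def, gol.act n c hc, gol.add _ _ (wd _ hc) hc,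
      inv_eq_of_mul_eq_one_right (st.el _ (gol.mem c hc))]
  have hM : ∀ n : NN V, (n : G) ∈ MM V (ψ o0) → ρ n ∈ GO := fun n hn => coe_mem_pre.1 (k1 ▸ hn)
  have p0 : pt 0 ∈ o0 := by decide +kernel
  have p4 : pt 4 ∉ o0 := by decide +kernel
  have hE : ∀ e ∈ fixS oct0, ∃ r : NN V, (r : G) ∈ RG V ρ ∧ ρ r = e := fun e he => by
    obtain ⟨r, rfl⟩ := st.sur e
    exact ⟨r, coe_mem_pre.2 he, rfl⟩
  have fin : ∀ (n r : NN V), (r : G) ∈ RG V ρ → ρ (r * n) = 1 → (n : G) ∈ RG V ρ :=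
    fun n r hr h => by
      have := mul_mem (inv_mem hr) (a.VR ((st.ker _).1 h))
      simpa using this
  refine ⟨fun m hm => ?_, fun m hm h => ?_, fun m hm h => ?_, 15, ?_⟩
  · lift m to NN V using hm.1 with n
    have h1 := hM n ⟨hm.1, mem_centralizer_singleton_iff.2 (hm.2 _ a.zW).symm⟩
    refine (st.ker n).1 (hyp8 fun c hc hd => ?_)
    have h2 := cm n c hc
    rw [commutatorElement_eq_one_iff_mul_comm.2 (hm.2 _ ((k2 c hc).2 (.inl hd))).symm] at h2
    rcases (gol.ker _ ((wd _ hc).symmDiff hc)).1 h2.symm with e | e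
    · exact symmDiff_eq_bot.1 e
    · exact absurd (e ▸ Finset.mem_univ _) (not_mem h1 hd p0)
  · lift m to NN V using hm.1 with n
    obtain ⟨e, he, h1⟩ := fixS_oct0_transitive (mt (mem_o0 (hM n hm)).1 p4) p4
    obtain ⟨r, hr, rfl⟩ := hE e he
    rw [← mul_smul, ← map_mul] at h1
    refine fin n r hr (hyp8 fun c hc hd => ?_)
    have h2 := (k2 c hc).2 (.inl hd)
    have h3 : ⁅((r * n : NN V) : G), ψ c⁆ ∈ zpowers (ψ o0) := by
      obtain ⟨i, hi⟩ := mem_zpowers_iff.1 (h _ h2)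
      rw [show ⁅((r * n : NN V) : G), ψ c⁆ = r * ⁅(n : G), ψ c⁆ * (r : G)⁻¹ * ⁅(r : G), ψ c⁆ by
        simp only [commutatorElement_def, coe_mul]; group, ← hi, ← conj_zpow,
        mem_centralizer_singleton_iff.1 (a.RM hr).2, mul_inv_cancel_right]
      exact mul_mem (zpow_mem (mem_zpowers _) i) (a.RW _ hr _ h2)
    have h4 : pt 4 ∉ (ρ (r * n) • c) ∆ c := by
      rw [Finset.mem_symmDiff]
      conv => enter [1, 1, 1]; rw [← h1, msmul_mem_msmul]
      conv => enter [1, 2, 2]; rw [← h1, msmul_mem_msmul]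
      tauto
    rw [cm _ c hc, k3 _ ((wd _ hc).symmDiff hc)] at h3
    rcases h3 with e | e | e | e
    · exact symmDiff_eq_bot.1 e
    · exact absurd (e ▸ Finset.mem_univ _) h4
    · exact absurd (e ▸ p0) (not_mem (hM _ (mul_mem (a.RM hr) hm)) hd p0)
    · exact absurd (e ▸ Finset.mem_compl.2 p4) h4
  · lift m to NN V using hm.1 with n
    obtain ⟨e, he, h1⟩ := fixS_oct0_transitive (mt (mem_o0 (hM n hm)).1 p4) p4
    obtain ⟨r, hr, rfl⟩ := hE e he
    refine fin n r hr (fix16 fun q hq => ?_)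
    obtain ⟨e', he', rfl⟩ := fixS_oct0_transitive p4 hq
    have h2 : ρ r * e' = e' * ρ r := H18.MaxOff.comm_of_sq (fun x hx => by
      obtain ⟨s, hs, rfl⟩ := hE x hx
      rw [← map_mul]
      exact (st.ker _).2 (a.sqR _ hs)) he he'
    obtain ⟨s, hs, rfl⟩ := hE e' he'
    have h3 : ρ n * ρ s = ρ s * ρ n := by
      rw [← commutatorElement_eq_one_iff_mul_comm, ← map_commutatorElement]
      exact (st.ker _).2 (h _ hs)
    rw [map_mul, ← mul_smul, mul_assoc, h3, ← mul_assoc, h2, mul_smul, mul_smul, h1]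
  · refine (card_dvd_of_le (fun m hm => ?_ : _ ≤ RG V ρ)).trans (ga.cR ▸ dvd_mul_left _ _)
    lift m to NN V using hm.1.1 with n
    refine coe_mem_pre.2 (mem_fixS.2 fun p hp => by_contra fun hne => ?_)
    obtain ⟨x, hx, hx'⟩ := Finset.exists_mem_notMem_of_card_lt_card
      (s := {p, ρ n • p}) (t := o0) (Finset.card_le_two.trans_lt (by rw [o0, oct0_mem.2]; omega))
    simp only [Finset.mem_insert, Finset.mem_singleton, not_or] at hx'
    obtain ⟨c, hc, e⟩ := H48.exists_word_inter {p, ρ n • p, x, (ρ n)⁻¹ • x} {p}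
      (Finset.card_le_four.trans (by omega)) (by simp)
    have e1 : ∀ y ∈ ({p, ρ n • p, x, (ρ n)⁻¹ • x} : Finset GolayPt), y ∈ c ↔ y = p := fun y hy => by
      rw [← Finset.mem_singleton, ← e, Finset.mem_inter, and_iff_left hy]
    have h1 : ⁅(n : G), ψ c⁆ ∈ WG ψ := hm.2.2 _ (gol.mem c hc)
    rw [cm n c hc, k2 _ ((wd _ hc).symmDiff hc)] at h1
    rcases h1 with h1 | h1
    · exact Finset.disjoint_left.1 h1 (Finset.mem_symmDiff.2 (.inl ⟨(msmul_mem_msmul _).2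
        ((e1 p (by simp)).2 rfl), mt (e1 _ (by simp)).1 hne⟩)) ((mem_o0 (hM n hm.1)).2 hp)
    · rcases Finset.mem_symmDiff.1 (h1 hx) with ⟨h2, -⟩ | ⟨h2, -⟩
      · exact hx'.2 (inv_smul_eq_iff.1 ((e1 _ (by simp)).1 (Finset.inv_smul_mem_iff.2 h2)))
      · exact hx'.1 ((e1 _ (by simp)).1 h2)

end Cfsg.Agent.H19.RfVbG
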