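import Cfsg.Agent.H18.RfSc
import Cfsg.Agent.H49.XSDual

/-! Project RF: the piece XSW. -/

set_option autoImplicit false

namespace Cfsg.Agent.H19.RfXsW

open Cfsg Subgroup Cfsg.Agent.H18.MaxOff Cfsg.Agent.H18.Rf
open Cfsg.Agent.H49 (XS)

universe u

theorem xsW : XsWStmt.{u} := by
  intro G _ _ V z Q Q' W X Y hV lc cf rd hY h4
  have xs := cf.xs
  have zD : z ∈ Q ⊓ Y := ⟨xs.mem, cf.hY ▸ ⟨cf.xs'.mem, le_normalizer xs.mem⟩⟩
  have zR : z ∈ RR Q Y := ⟨zD, fun x hx => xs.cen x hx.1⟩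
  obtain ⟨w, wR, wZ⟩ : ∃ w ∈ RR Q Y, w ∉ zpowers z := by
    by_contra! H
    have := card_le_of_le (show RR Q Y ≤ zpowers z from H)
    rw [h4, xs.card_Z] at this
    omega
  have hU : UU z w ≤ RR Q Y := (closure_le _).2 (by rintro _ (rfl | rfl); exacts [zR, wR])
  have hR : UU z w = RR Q Y := eq_of_le_of_card_ge hU (by
    have h1 := card_dvd_of_le hU
    have h2 : ¬ Nat.card (UU z w) ≤ 2 := fun e => wZ (by
      rw [eq_of_le_of_card_ge (zpowers_le.2 (subset_closure (by simp)) : zpowers z ≤ UU z w)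
        (xs.card_Z ▸ e)]
      exact subset_closure (by simp))
    rw [h4] at h1 ⊢
    have h3 := Nat.le_of_dvd (by omega) h1
    generalize Nat.card (UU z w) = n at *
    interval_cases n <;> omega)
  have w1 : w ≠ 1 := fun e => wZ (e ▸ one_mem _)
  have wz : w ≠ z := fun e => wZ (e ▸ mem_zpowers _)
  have wQ' : w ∈ Q' := (cf.hY ▸ wR.1.2 : w ∈ Q' ⊓ NN Q).1
  have hX : X = Q ⊓ C1 w := by
    rw [rd.xr, ← hR, CC, centralizer_closure]
    ext x
    refine and_congr_right fun hx => ⟨fun h => centralizer_le (by simp) h, fun h => ?_⟩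
    rintro _ (rfl | rfl)
    exacts [(xs.cen x hx).symm, h _ rfl]
  have yw : Y ≤ C1 w := fun y hy => mem_centralizer_singleton_iff.2 (rd.yr hy w wR).symm
  have hY' : Y = Q' ⊓ C1 w := eq_of_le_of_card_ge (le_inf (cf.hY ▸ inf_le_left) yw) (by
    have h1 := xs.card_inf_centralizer wR.1.1 w1 wz
    have h2 : 2 * Nat.card ↥(Q' ⊓ C1 w) = _ := cf.xs'.card_inf_centralizer wQ' w1 wz
    rw [← hX, cf.card] at h1
    have := cf.cQ
    omega)
  refine ⟨w, by_contra fun wW => rd.nd fun u hu => ?_, wZ, wQ', hX, hY', fun y hy =>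
    ⟨⟨hY hy, yw hy⟩, centralizer_le_normalizer _ (hR ▸ rd.yr hy), fun x hx => ?_⟩⟩
  · obtain ⟨v, vW, hv⟩ : ∃ v ∈ W, v * w ≠ w * v := by
      by_contra! H
      exact wW (lc.cw ▸ ⟨wR.1.1, H⟩)
    have vQ : v ∈ Q ⊓ V := lc.qv ▸ vW
    have vX : v ∉ X := fun e => hv (mem_centralizer_singleton_iff.1 (hX ▸ e : v ∈ Q ⊓ C1 w).2)
    have key : ∀ u ∈ Q ⊓ CC (Q ⊓ Y), ∃ c ∈ V, ∃ r ∈ RR Q Y, u = c * r := fun u hu => by
      obtain ⟨y, hy, hr⟩ := rd.on v vQ.1 vX u hu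
      refine ⟨v * y * v⁻¹ * y⁻¹, ?_, _, hr, by group⟩
      have := V.mul_mem vQ.2 ((mem_normalizer_iff.1 (hY hy).1 _).1 (V.inv_mem vQ.2))
      simpa only [mul_assoc] using this
    refine ⟨xs.centralizer_centralizer inf_le_left zD ▸ ⟨hu.1, fun u' hu' => ?_⟩, hu.2⟩
    obtain ⟨c, hc, r, hr, rfl⟩ := key u hu
    obtain ⟨c', hc', r', hr', rfl⟩ := key u' hu'
    have h1 : Commute r' (c * r) := hu.2 r' hr'.1
    have h2 : Commute r (c' * r') := hu'.2 r hr.1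
    have h3 : Commute r r' := hr'.2 r hr.1
    have h5 : Commute r c' := by simpa using h2.mul_right h3.inv_right
    exact (Commute.mul_left (Commute.mul_right (comm_of_sq hV hc' hc) h5.symm) h1).eq
  · have := inv_mem (rd.cm x (hX ▸ hx) y hy)
    rw [hR]
    simpa only [mul_inv_rev, inv_inv, mul_assoc] using this

end Cfsg.Agent.H19.RfXsW
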