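import Cfsg.Agent.H74.UVDefs
import Cfsg.Agent.H88.FrobFree

/-! Project UV: the piece FROB. -/

set_option autoImplicit false
set_option linter.style.haveILetI false

namespace Cfsg.Agent.H19.UvFrob

open Cfsg Module Subgroup Cfsg.Agent.H31 Cfsg.Agent.H74.UV
open Cfsg.Agent.H53.Uw (St fx mem_fx)

universe u

theorem free {k V A : Type*} [Field k] [AddCommGroup V] [Module k V] [FiniteDimensional k V]
    [Group A] [Finite A] [DecidableEq A] (ρ : Representation k A V) (N H : Subgroup A) [N.Normal]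
    (hc : IsComplement' N H) (hsol : Group.IsSolvable N) (hNk : (Nat.card N : k) ≠ 0)
    (hfp : ∀ h ∈ H, h ≠ 1 → ∀ n ∈ N, Commute h n → n = 1)
    (hNC : ∀ v : V, (∀ f ∈ N, ρ f v = v) → v = 0) :
    ∃ W : Submodule k V, DirectSum.IsInternal (fun h : H => W.map (ρ (h : A))) := by
  have hsum : H88.nsum ρ N = 0 := by
    ext x
    exact hNC _ fun f hf => congrArg (fun e : Module.End k V => e x) (H88.mul_nsum ρ N hf)
  let π : A →* H := hc.symm.QuotientMulEquiv.toMonoidHom.comp (QuotientGroup.mk' N)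
  have hπ1 : ∀ n ∈ N, π n = 1 := by
    intro n hn
    simp only [π, MonoidHom.comp_apply, QuotientGroup.mk'_apply,
      (QuotientGroup.eq_one_iff n).mpr hn, map_one]
  have hπ2 : ∀ h : H, π h = h := by
    intro h
    show hc.symm.QuotientMulEquiv (QuotientGroup.mk (h : A)) = h
    rw [MulEquiv.apply_eq_iff_symm_apply]
    rfl
  refine H88.free_of_freeNum (ρ.comp H.subtype)
    (H88.freeNum_of_nsum H N hsol hNk hfp ρ hsum).1 fun S _ _ _ σ => ?_
  have h1 := H88.freeNum_of_nsum H N hsol hNk hfp (ρ.linHom (σ.comp π)) (by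
    ext φ x
    letI := Fintype.ofFinite N
    rw [H88.nsum_apply]
    simp only [Representation.linHom_apply, LinearMap.sum_apply, LinearMap.comp_apply,
      MonoidHom.comp_apply, LinearMap.zero_apply]
    have h2 : ∑ n : N, σ (π n) (φ (ρ (n : A)⁻¹ x)) = ∑ n : N, φ (ρ n x) := by
      refine Fintype.sum_equiv (Equiv.inv N) _ _ fun n => ?_
      rw [hπ1 n n.2]; simp
    rw [h2, ← map_sum, ← H88.nsum_apply, hsum]; simp)
  have h2 : (ρ.linHom (σ.comp π)).comp H.subtype =
      Representation.linHom (ρ.comp H.subtype) σ := by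
    ext h φ x
    simp [hπ2]
  rwa [h2] at h1

theorem frob (pm : PermStmt.{u}) : FrobStmt.{u} := by
  intro E V _ _ _ _ _ σ B q l hs _ hl _ hd x _ ho n _ hn hf hC
  classical
  haveI : Fact l.Prime := ⟨hl⟩
  haveI : Finite (V ≃ₗ[E] V) := Finite.of_injective _ (DFunLike.coe_injective (F := V ≃ₗ[E] V))
  have hlE : (l : E) ≠ 0 := fun e => by
    have h1 := FiniteField.cast_card_eq_zero E
    rw [hs.card, Nat.cast_pow, pow_eq_zero_iff two_ne_zero] at h1
    obtain ⟨c, hc⟩ := hd
    have := congrArg (Nat.cast : ℕ → E) hc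
    simp [h1, e] at this
  let A := zpowers x ⊔ zpowers n
  have hA : ∀ a : A, ∀ w ∈ fx x, a.1 w = w := fun a => (mem_fixingSubgroup_iff _).1
    ((sup_le (zpowers_le.2 ((mem_fixingSubgroup_iff _).2 fun w hw => mem_fx.1 hw))
      (zpowers_le.2 ((mem_fixingSubgroup_iff _).2 hf)) :
      A ≤ fixingSubgroup (V ≃ₗ[E] V) (fx x : Set V)) a.2)
  let ρ₀ : Representation E A V :=
    LinearEquiv.automorphismGroup.toLinearMapMonoidHom.comp A.subtype
  have hle : ∀ a, fx x ≤ (fx x).comap (ρ₀ a) := fun a w hw => by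
    change a.1 w ∈ fx x
    rwa [hA a w hw]
  haveI : ((zpowers x).subgroupOf A).Normal := normal_subgroupOf_of_le_normalizer
    (sup_le le_normalizer (zpowers_le.2 (mem_normalizer_fintype fun y hy => by
      obtain ⟨i, rfl⟩ := mem_zpowers_iff.1 hy
      rw [← conj_zpow]
      exact zpow_mem hn i)))
  have hH : ∀ h ∈ (zpowers n).subgroupOf A, Commute h.1 x → h = 1 := fun h hh hc => by
    obtain ⟨i, hi⟩ := mem_powers_iff_mem_zpowers.2 (mem_subgroupOf.1 hh)
    exact Subtype.ext (hi ▸ hC i (by rwa [show n ^ i = h.1 from hi]))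
  have hcard : Nat.card (zpowers x) = l := by rw [Nat.card_zpowers, ho]
  have e1 := subgroupOfEquivOfLe (le_sup_left : zpowers x ≤ A)
  obtain ⟨W, hW⟩ := free (ρ₀.quotient (fx x) hle) ((zpowers x).subgroupOf A)
    ((zpowers n).subgroupOf A)
    (isComplement'_of_disjoint_and_mul_eq_univ (disjoint_def.2 fun {a} h1 h2 => hH a h2 (by
      obtain ⟨i, hi⟩ := mem_zpowers_iff.1 (mem_subgroupOf.1 h1)
      exact hi ▸ (Commute.refl x).zpow_left i))
      (by rw [← normal_mul, ← subgroupOf_sup le_sup_left le_sup_right, subgroupOf_self, coe_top]))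
    (Group.isSolvable_of_isSolvable_injective (f := e1.toMonoidHom) e1.injective)
    (by rwa [Nat.card_congr e1.toEquiv, hcard])
    (fun h hh h1 m hm hc => by
      by_contra hm1
      obtain ⟨i, hi⟩ := mem_zpowers_iff.1 (mem_zpowers_of_prime_card hcard
        (g := ⟨m.1, mem_subgroupOf.1 hm⟩) (g' := ⟨x, mem_zpowers x⟩)
        fun e => hm1 (Subtype.ext (congrArg (fun y : zpowers x => y.1) e)))
      exact h1 (hH h hh ((show m.1 ^ i = x from congrArg Subtype.val hi) ▸
        (hc.map A.subtype).zpow_right i)))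
    (fun v hv => by
      obtain ⟨v, rfl⟩ := (fx x).mkQ_surjective v
      have h1 : x v - v ∈ fx x := (Submodule.Quotient.eq _).1
        (hv ⟨x, mem_sup_left (mem_zpowers x)⟩ (mem_subgroupOf.2 (mem_zpowers x)))
      have h2 : ∀ k : ℕ, (x ^ k) v = v + (k : E) • (x v - v) := fun k => by
        induction k with
        | zero => simp
        | succ k ih =>
          rw [pow_succ', LinearEquiv.mul_apply, ih, map_add, map_smul, mem_fx.1 h1, Nat.cast_succ,
            add_smul, one_smul]
          abel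
      have h3 := h2 l
      rw [← ho, pow_orderOf_eq_one, ho, LinearEquiv.coe_one, id, left_eq_add, smul_eq_zero,
        sub_eq_zero] at h3
      exact (Submodule.Quotient.mk_eq_zero _).2 (mem_fx.2 (h3.resolve_left hlE)))
  have h1 := pm E _ A _ _ W hW ⟨n, mem_sup_right (mem_zpowers n)⟩ (mem_subgroupOf.2 (mem_zpowers n))
  have h2 := hle ⟨n, mem_sup_right (mem_zpowers n)⟩
  have h3 := LinearMap.det_eq_det_mul_det (fx x) _ h2
  rw [show LinearMap.restrict _ h2 = LinearMap.id from
    LinearMap.ext fun w => Subtype.ext (hf w.1 w.2), LinearMap.det_id, one_mul] at h3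
  refine Units.ext ?_
  rw [Units.val_pow_eq_pow_val, LinearEquiv.coe_det]
  exact (congrArg (· ^ 2) h3).trans h1

end Cfsg.Agent.H19.UvFrob
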